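import Mathlib
import Cfsg.Agent.BNPair.Basic
import Cfsg.Agent.BNPair.Coxeter

/-!
Rank two (B,N)-pairs: alternating words, lengths, levels.
-/

set_option autoImplicit false

namespace Cfsg.Agent.H93.FH

open Cfsg.Agent.BNP Cfsg.Agent

section words

variable {I : Type*}

/-- the letter number `k + 1` of the alternating word starting with the first letter -/
def Lt (s t : I) (k : ℕ) : I := if Even k then s else t

theorem Lt_zero (s t : I) : Lt s t 0 = s := by simp [Lt]

theorem Lt_succ (s t : I) (k : ℕ) : Lt s t (k + 1) = Lt t s k := by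
  unfold Lt
  by_cases h : Even k
  · rw [if_neg (by rw [Nat.not_even_iff_odd]; exact h.add_one), if_pos h]
  · rw [if_pos (by rw [Nat.not_even_iff_odd] at h; exact h.add_one), if_neg h]

theorem alt_succ' (s t : I) (k : ℕ) : Cox.alt s t (k + 1) = Cox.alt s t k ++ [Lt s t k] := by
  induction k generalizing s t with
  | zero => simp [Cox.alt, Lt]
  | succ k ih =>
    rw [Cox.alt, ih t s, Cox.alt, Lt_succ]
    rfl

end words

variable {G : Type*} [Group G] (P : Cfsg.BNPair G)

/-- alternating products -/
def tau (s t : P.S) (k : ℕ) : W P := wp P (Cox.alt s t k)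

variable (s t : P.S)

theorem tau_zero : tau P s t 0 = 1 := rfl

theorem tau_succ (k : ℕ) : tau P s t (k + 1) = σ P s * tau P t s k := by
  rw [tau, Cox.alt, wp_cons]; rfl

theorem tau_succ' (k : ℕ) : tau P s t (k + 1) = tau P s t k * σ P (Lt s t k) := by
  rw [tau, alt_succ', wp_append, wp_cons, wp_nil, mul_one]; rfl

theorem tau_eq_iff (k : ℕ) : tau P s t k = tau P t s k ↔ (σ P s * σ P t) ^ k = 1 :=
  Cox.wp_alt_eq_iff (σ P) s t (σ_mul_self P s) (σ_mul_self P t) k

/-- the order of the product of the two generators -/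
noncomputable def nn : ℕ := orderOf (σ P s * σ P t)

theorem nn_comm : nn P s t = nn P t s := by
  unfold nn
  have h1 : σ P s * σ P t = (σ P t * σ P s)⁻¹ := by rw [mul_inv_rev, σ_inv, σ_inv]
  rw [h1, orderOf_inv]

theorem tau_nn : tau P s t (nn P s t) = tau P t s (nn P s t) :=
  (tau_eq_iff P s t _).2 (pow_orderOf_eq_one _)

theorem len_tau_aux (k : ℕ) (hk : k ≤ nn P s t) : len P (tau P s t k) = k ∧ len P (tau P t s k) = k := by
  have main : ∀ (k : ℕ) (s t : P.S), k + 1 ≤ nn P s t → len P (tau P t s k) = k → len P (tau P s t (k + 1)) = k + 1 := by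
    intro k s t hk ih
    rw [tau_succ]
    rcases len_σ_mul_cases P s (tau P t s k) with h | h
    · rw [h, ih]
    · exfalso
      obtain ⟨j, hj, e⟩ := exchange_prefix P (s := s) (l := Cox.alt t s k) (by rw [Cox.length_alt]; exact ih) (by
        show len P (σ P s * tau P t s k) < len P (tau P t s k)
        omega)
      rw [Cox.length_alt] at hj
      rw [Cox.take_alt _ _ _ _ hj.le, Cox.take_alt _ _ _ _ hj] at e
      have e' : tau P s t (j + 1) = tau P t s (j + 1) := by rw [tau_succ]; exact e
      rw [tau_eq_iff] at e'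
      have h2 := orderOf_le_of_pow_eq_one (by omega) e'
      have h3 : nn P s t = orderOf (σ P s * σ P t) := rfl
      omega
  induction k with
  | zero => rw [tau_zero, tau_zero, len_one]; exact ⟨rfl, rfl⟩
  | succ k ih =>
    obtain ⟨h1, h2⟩ := ih (by omega)
    exact ⟨main k s t hk h2, main k t s (by rw [nn_comm]; exact hk) h1⟩

theorem len_tau {k : ℕ} (hk : k ≤ nn P s t) : len P (tau P s t k) = k := (len_tau_aux P s t k hk).1

variable {s t}

/-- elements without left descent `s` -/
theorem eq_tau_of_len_lt (hS : ∀ r : P.S, r = s ∨ r = t) (w : W P) (hw : len P w < len P (σ P s * w)) :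
    w = tau P t s (len P w) := by
  have main : ∀ (k : ℕ) (s t : P.S), (∀ r : P.S, r = s ∨ r = t) → ∀ w : W P, len P w = k → len P w < len P (σ P s * w) →
      w = tau P t s k := by
    intro k
    induction k with
    | zero =>
      intro s t _ w hk _
      rw [eq_one_of_len_eq_zero P hk]; rfl
    | succ k ih =>
      intro s t hS w hk hw
      have hw1 : w ≠ 1 := by
        rintro rfl
        rw [len_one] at hk
        omega
      obtain ⟨r, hr⟩ := exists_left_descent P hw1
      rcases hS r with rfl | rfl
      · omega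
      · have h1 : len P (σ P r * w) = k := by omega
        have h2 := ih r s (fun x => (hS x).symm) (σ P r * w) h1 (by rw [σ_mul_cancel, h1]; omega)
        rw [tau_succ, ← h2, σ_mul_cancel]
  exact main _ s t hS w rfl hw

theorem len_lt_nn (hn : 0 < nn P s t) (hS : ∀ r : P.S, r = s ∨ r = t) (w : W P) (hw : len P w < len P (σ P s * w)) :
    len P w < nn P s t := by
  by_contra hcon
  push Not at hcon
  have h1 := eq_tau_of_len_lt P hS w hw
  obtain ⟨r, hr⟩ := Cox.exists_alt_append t s (len P w) (nn P s t) hcon
  have h2 : w = tau P s t (nn P s t) * wp P r := by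
    rw [tau_nn]
    conv_lhs => rw [h1, tau, hr, wp_append]
    rfl
  obtain ⟨n', hn'⟩ := Nat.exists_eq_succ_of_ne_zero hn.ne'
  have h3 : σ P s * w = tau P t s n' * wp P r := by
    rw [h2, hn', Nat.succ_eq_add_one, tau_succ, mul_assoc, σ_mul_cancel]
  have h4 : r.length + nn P s t = len P w := by
    have := congrArg List.length hr
    rw [Cox.length_alt, List.length_append, Cox.length_alt] at this
    omega
  have h5 : len P (σ P s * w) ≤ n' + r.length := by
    rw [h3]
    refine (len_mul_le P _ _).trans ?_
    have h6 := len_le P r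
    have h7 := len_le P (Cox.alt t s n')
    rw [Cox.length_alt] at h7
    have h8 : len P (tau P t s n') ≤ n' := h7
    omega
  omega

theorem exists_tau (hn : 0 < nn P s t) (hS : ∀ r : P.S, r = s ∨ r = t) (w : W P) :
    ∃ k < nn P s t, w = tau P t s k ∨ w = σ P s * tau P t s k := by
  rcases len_σ_mul_cases P s w with h | h
  · exact ⟨len P w, len_lt_nn P hn hS w (by omega), Or.inl (eq_tau_of_len_lt P hS w (by omega))⟩
  · have h1 : len P (σ P s * w) < len P (σ P s * (σ P s * w)) := by rw [σ_mul_cancel]; omega
    refine ⟨len P (σ P s * w), len_lt_nn P hn hS _ h1, Or.inr ?_⟩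
    rw [← eq_tau_of_len_lt P hS _ h1, σ_mul_cancel]

/-- the level of an element of the Weyl group -/
noncomputable def cw (s : P.S) (w : W P) : ℕ := min (len P w) (len P (σ P s * w))

theorem cw_σ_mul (s : P.S) (w : W P) : cw P s (σ P s * w) = cw P s w := by
  unfold cw
  rw [σ_mul_cancel, min_comm]

theorem cw_tau {k : ℕ} (hk : k < nn P s t) : cw P s (tau P t s k) = k := by
  unfold cw
  rw [← tau_succ, len_tau P s t hk, len_tau P t s (by rw [nn_comm]; exact hk.le)]
  omega

theorem cw_tau_nn {k : ℕ} (hk : k + 1 = nn P s t) : cw P s (tau P t s (k + 1)) = k := by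
  have h1 := tau_nn P s t
  rw [← hk] at h1
  rw [← h1, tau_succ, cw_σ_mul]
  exact cw_tau P (by omega)

theorem cw_lt (hn : 0 < nn P s t) (hS : ∀ r : P.S, r = s ∨ r = t) (w : W P) : cw P s w < nn P s t := by
  obtain ⟨k, hk, rfl | rfl⟩ := exists_tau P hn hS w
  · rw [cw_tau P hk]; exact hk
  · rw [cw_σ_mul, cw_tau P hk]; exact hk

theorem eq_of_cw (hn : 0 < nn P s t) (hS : ∀ r : P.S, r = s ∨ r = t) {w : W P} {k : ℕ} (h : cw P s w = k) :
    w = tau P t s k ∨ w = σ P s * tau P t s k := by
  obtain ⟨j, hj, hw⟩ := exists_tau P hn hS w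
  have : cw P s w = j := by
    rcases hw with rfl | rfl
    · exact cw_tau P hj
    · rw [cw_σ_mul, cw_tau P hj]
  rw [← h, this]; exact hw

/-- the order of the Weyl group -/
theorem card_W (hn : 0 < nn P s t) (hS : ∀ r : P.S, r = s ∨ r = t) : Nat.card (W P) = 2 * nn P s t := by
  let f : Bool × Fin (nn P s t) → W P := fun x => (if x.1 then 1 else σ P s) * tau P t s x.2
  have hf : Function.Bijective f := by
    constructor
    · rintro ⟨b, i⟩ ⟨b', i'⟩ h
      have h1 : cw P s (f (b, i)) = i := by
        show cw P s ((if b then 1 else σ P s) * tau P t s i) = i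
        cases b
        · simp only [Bool.false_eq_true, if_false]
          rw [cw_σ_mul, cw_tau P i.2]
        · simp only [if_true, one_mul]
          exact cw_tau P i.2
      have h2 : cw P s (f (b', i')) = i' := by
        show cw P s ((if b' then 1 else σ P s) * tau P t s i') = i'
        cases b'
        · simp only [Bool.false_eq_true, if_false]
          rw [cw_σ_mul, cw_tau P i'.2]
        · simp only [if_true, one_mul]
          exact cw_tau P i'.2
      have hi : i = i' := by
        apply Fin.ext
        rw [← h1, ← h2, h]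
      subst hi
      have h3 : (if b then (1 : W P) else σ P s) = if b' then 1 else σ P s := mul_right_cancel h
      have hb : b = b' := by
        cases b <;> cases b' <;> simp at h3 ⊢
        · exact σ_ne_one P s h3
        · exact σ_ne_one P s h3.symm
      rw [hb]
    · intro w
      obtain ⟨k, hk, rfl | rfl⟩ := exists_tau P hn hS w
      · exact ⟨(true, ⟨k, hk⟩), by simp [f]⟩
      · exact ⟨(false, ⟨k, hk⟩), by simp [f]⟩
  rw [← Nat.card_congr (Equiv.ofBijective f hf), Nat.card_prod]
  simp

/-- alternating words of odd length are involutions -/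
theorem tau_odd_inv (k : ℕ) : ∀ s t : P.S, (tau P s t (2 * k + 1))⁻¹ = tau P s t (2 * k + 1) := by
  induction k with
  | zero =>
    intro s t
    rw [mul_zero, zero_add, tau_succ, tau_zero, mul_one, σ_inv]
  | succ k ih =>
    intro s t
    have h1 : tau P s t (2 * (k + 1) + 1) = σ P s * tau P t s (2 * k + 1) * σ P s := by
      rw [show 2 * (k + 1) + 1 = (2 * k + 1 + 1) + 1 by ring, tau_succ, tau_succ', mul_assoc]
      congr 3
      rw [Lt_succ]
      unfold Lt
      rw [if_pos (even_two_mul k)]
    rw [h1, mul_inv_rev, mul_inv_rev, σ_inv, ih]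
    group

end Cfsg.Agent.H93.FH
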