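import Mathlib
import Cfsg.Agent.H93.FH.Levels

/-!
Rank two (B,N)-pairs: sums over cosets of minimal parabolic subgroups.
-/

set_option autoImplicit false

namespace Cfsg.Agent.H93.FH

open Cfsg.Agent.BNP Cfsg.Agent

variable {G : Type*} [Group G] (P : Cfsg.BNPair G)

/-- the Weyl distance -/
noncomputable def wg (g : G) : W P := (exists_mem_C P g).choose

theorem wg_spec (g : G) : g ∈ C P (wg P g) := (exists_mem_C P g).choose_spec

theorem wg_eq {g : G} {w : W P} (h : g ∈ C P w) : wg P g = w := C_disjoint P (wg_spec P g) h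

theorem wg_mul_B {g b : G} (hb : b ∈ P.B) : wg P (g * b) = wg P g := wg_eq P (mul_mem_C_right P hb (wg_spec P g))

theorem wg_B_mul {g b : G} (hb : b ∈ P.B) : wg P (b * g) = wg P g := wg_eq P (mul_mem_C_left P hb (wg_spec P g))

theorem wg_inv (g : G) : wg P g⁻¹ = (wg P g)⁻¹ := wg_eq P (inv_mem_C P (wg_spec P g))

theorem mul_mem_C_of_len_le' {s : P.S} {w : W P} {x y : G} (hx : x ∈ C P w) (hy : y ∈ C P (σ P s))
    (hl : len P w ≤ len P (w * σ P s)) : x * y ∈ C P (w * σ P s) := by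
  have hx' := inv_mem_C P hx
  have hy' := inv_mem_C P hy
  rw [σ_inv] at hy'
  have h1 := mul_mem_C_of_len_le P hy' hx' (by
    have h2 : σ P s * w⁻¹ = (w * σ P s)⁻¹ := by rw [mul_inv_rev, σ_inv]
    rw [h2, len_inv, len_inv]; exact hl)
  have := inv_mem_C P h1
  simpa [mul_inv_rev] using this

/-- the minimal parabolic subgroup -/
def PP (r : P.S) : Subgroup G := par P {r}

theorem mem_PP {r : P.S} {g : G} : g ∈ PP P r ↔ g ∈ P.B ∨ g ∈ C P (σ P r) := by
  unfold PP
  rw [mem_par]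
  have h1 : ∀ w : W P, w ∈ Subgroup.closure (σ P '' {r}) ↔ w = 1 ∨ w = σ P r := by
    intro w
    rw [Set.image_singleton, Subgroup.mem_closure_singleton]
    constructor
    · rintro ⟨k, rfl⟩
      rcases Int.even_or_odd' k with ⟨m, rfl | rfl⟩
      · left
        rw [zpow_mul, zpow_two, σ_mul_self, one_zpow]
      · right
        rw [zpow_add, zpow_mul, zpow_two, σ_mul_self, one_zpow, one_mul, zpow_one]
    · rintro (rfl | rfl)
      · exact ⟨0, zpow_zero _⟩
      · exact ⟨1, zpow_one _⟩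
  constructor
  · rintro ⟨w, hw, hg⟩
    rcases (h1 w).1 hw with rfl | rfl
    · left; exact (mem_C_one P).1 hg
    · right; exact hg
  · rintro (hg | hg)
    · exact ⟨1, (h1 1).2 (Or.inl rfl), (mem_C_one P).2 hg⟩
    · exact ⟨σ P r, (h1 _).2 (Or.inr rfl), hg⟩

theorem B_le_PP (r : P.S) : P.B ≤ PP P r := fun _ hb => (mem_PP P).2 (Or.inl hb)

variable (s t : P.S)

/-- the level of an element of the group -/
noncomputable def lv (g : G) : ℕ := cw P s (wg P g)

variable {s t}

theorem lv_mul_B {g b : G} (hb : b ∈ P.B) : lv P s (g * b) = lv P s g := by rw [lv, lv, wg_mul_B P hb]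

theorem lv_PP_mul {g p : G} (hp : p ∈ PP P s) : lv P s (p * g) = lv P s g := by
  rcases (mem_PP P).1 hp with h | h
  · rw [lv, lv, wg_B_mul P h]
  · rcases mul_mem_C_or P h (wg_spec P g) with h1 | h1
    · rw [lv, wg_eq P h1, cw_σ_mul]; rfl
    · rw [lv, wg_eq P h1]; rfl

section count

variable [Finite G]

/-- the parameters -/
noncomputable def qq (r : P.S) : ℕ := (P.B.subgroupOf (PP P r)).index - 1

theorem index_pos (r : P.S) : 0 < (P.B.subgroupOf (PP P r)).index := Nat.pos_of_ne_zero Subgroup.index_ne_zero_of_finite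

theorem card_PP (r : P.S) : Nat.card (PP P r) = Nat.card P.B * (1 + qq P r) := by
  have h1 := Subgroup.card_mul_index (P.B.subgroupOf (PP P r))
  have h2 : Nat.card (P.B.subgroupOf (PP P r)) = Nat.card P.B :=
    Nat.card_congr (Subgroup.subgroupOfEquivOfLe (B_le_PP P r)).toEquiv
  have h3 := index_pos P r
  rw [← h1, h2, qq]
  congr 1
  omega

theorem two_le_qq (r : P.S) : 2 ≤ qq P r := by
  have h3 := index_pos P r
  have hr := coe_mem_C_σ P r
  have hrP : (r : G) ∈ PP P r := (mem_PP P).2 (Or.inr hr)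
  have hrB : (r : G) ∉ P.B := S_not_mem_B P r.2
  have h1 : (P.B.subgroupOf (PP P r)).index ≠ 1 := by
    intro h
    rw [Subgroup.index_eq_one] at h
    apply hrB
    have : (⟨r, hrP⟩ : PP P r) ∈ P.B.subgroupOf (PP P r) := by rw [h]; trivial
    exact this
  have h2 : (P.B.subgroupOf (PP P r)).index ≠ 2 := by
    intro h
    have hn := Subgroup.normal_of_index_eq_two h
    apply P.conj_ne r r.2
    have hsq : (r : G) * r ∈ P.B := P.sq_mem r r.2
    have hc : ∀ b ∈ P.B, (r : G) * b * (r : G)⁻¹ ∈ P.B := by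
      intro b hb
      exact hn.conj_mem ⟨b, B_le_PP P r hb⟩ hb ⟨r, hrP⟩
    have hc' : ∀ b ∈ P.B, (r : G)⁻¹ * b * (r : G) ∈ P.B := by
      intro b hb
      have := hn.conj_mem ⟨b, B_le_PP P r hb⟩ hb (⟨r, hrP⟩ : PP P r)⁻¹
      rw [inv_inv] at this
      exact this
    apply Set.Subset.antisymm
    · rintro _ ⟨b, hb, rfl⟩
      have : (r : G) * b * r = (r * b * (r : G)⁻¹) * (r * r) := by group
      show (r : G) * b * r ∈ P.B
      rw [this]
      exact P.B.mul_mem (hc b hb) hsq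
    · intro g hg
      refine ⟨(r : G)⁻¹ * (g * (r * r : G)⁻¹) * r, hc' _ (P.B.mul_mem hg (P.B.inv_mem hsq)), ?_⟩
      simp only; group
  unfold qq
  omega

end count

section sums

variable [Fintype G]

open scoped Classical in
/-- the sum over a coset of a minimal parabolic -/
noncomputable def SS (r : P.S) (F : G → ℝ) (g : G) : ℝ := ∑ p : PP P r, F (g * p)

/-- `|B|` as a real number -/
noncomputable def bb : ℝ := Nat.card P.B

theorem bb_pos : 0 < bb P := by
  unfold bb
  exact_mod_cast Nat.card_pos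

open scoped Classical in
theorem SS_up (Φ : W P → ℝ) {r : P.S} {w : W P} {g : G} (hg : g ∈ C P w) (hl : len P w < len P (w * σ P r)) :
    SS P r (fun x => Φ (wg P x)) g = bb P * (Φ w + qq P r * Φ (w * σ P r)) := by
  unfold SS
  have h1 : ∀ p : PP P r, Φ (wg P (g * p)) = (if (p : G) ∈ P.B then Φ w else Φ (w * σ P r)) := by
    intro p
    split_ifs with h
    · rw [wg_mul_B P h, wg_eq P hg]
    · have h2 := ((mem_PP P).1 p.2).resolve_left h
      rw [wg_eq P (mul_mem_C_of_len_le' P hg h2 hl.le)]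
  rw [Finset.sum_congr rfl (fun p _ => h1 p), Finset.sum_ite, Finset.sum_const, Finset.sum_const, nsmul_eq_mul, nsmul_eq_mul]
  have h3 : (Finset.univ.filter (fun p : PP P r => (p : G) ∈ P.B)).card = Nat.card P.B := by
    rw [← Nat.card_congr (Subgroup.subgroupOfEquivOfLe (B_le_PP P r)).toEquiv, Nat.card_eq_fintype_card, Fintype.card_subtype]
    congr 1
  have h4 : (Finset.univ.filter (fun p : PP P r => ¬ (p : G) ∈ P.B)).card = Nat.card P.B * qq P r := by
    have h5 := Finset.card_filter_add_card_filter_not (s := (Finset.univ : Finset (PP P r))) (fun p : PP P r => (p : G) ∈ P.B)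
    rw [Finset.card_univ, ← Nat.card_eq_fintype_card, card_PP, h3] at h5
    have h6 : Nat.card P.B * (1 + qq P r) = Nat.card P.B + Nat.card P.B * qq P r := by ring
    omega
  rw [h3, h4]
  unfold bb
  push_cast
  ring

theorem SS_dn (Φ : W P → ℝ) {r : P.S} {w : W P} {g : G} (hg : g ∈ C P w) (hl : len P (w * σ P r) < len P w) :
    SS P r (fun x => Φ (wg P x)) g = bb P * (Φ (w * σ P r) + qq P r * Φ w) := by
  classical
  have hg' : g ∈ C P (w * σ P r * σ P r) := by rwa [mul_σ_cancel]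
  obtain ⟨x, hx, y, hy, rfl⟩ := exists_factor P hg'
  have hyP : y ∈ PP P r := (mem_PP P).2 (Or.inr hy)
  have h1 := SS_up P Φ hx (by rw [mul_σ_cancel]; exact hl)
  rw [mul_σ_cancel] at h1
  rw [← h1]
  unfold SS
  refine Fintype.sum_equiv (Equiv.mulLeft (⟨y, hyP⟩ : PP P r)) _ _ ?_
  intro p
  show Φ (wg P (x * y * p)) = Φ (wg P (x * (y * p)))
  rw [mul_assoc]

variable {P}

theorem SS_left {r : P.S} {F : G → ℝ} (hF : ∀ p ∈ PP P s, ∀ g, F (p * g) = F g) {p : G} (hp : p ∈ PP P s) (g : G) :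
    SS P r F (p * g) = SS P r F g := by
  unfold SS
  apply Finset.sum_congr rfl
  intro x _
  rw [mul_assoc, hF p hp]

omit [Fintype G] in
theorem exists_rep (hn : 0 < nn P s t) (hS : ∀ r : P.S, r = s ∨ r = t) (g : G) :
    ∃ p ∈ PP P s, ∃ x ∈ C P (tau P t s (lv P s g)), g = p * x := by
  rcases eq_of_cw P hn hS (w := wg P g) rfl with h | h
  · refine ⟨1, one_mem _, g, ?_, (one_mul _).symm⟩
    have := wg_spec P g
    rwa [h] at this
  · have h1 := wg_spec P g
    rw [h] at h1
    obtain ⟨x, hx, y, hy, hxy⟩ := exists_factor P h1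
    exact ⟨x, (mem_PP P).2 (Or.inr hx), y, hy, hxy⟩

/-- at level `k + 1`, downwards -/
theorem SS_lv_dn (hn : 0 < nn P s t) (hS : ∀ r : P.S, r = s ∨ r = t) (φ : ℕ → ℝ) {g : G} {k : ℕ} (hg : lv P s g = k + 1) :
    SS P (Lt t s k) (fun x => φ (lv P s x)) g = bb P * (φ k + qq P (Lt t s k) * φ (k + 1)) := by
  obtain ⟨p, hp, x, hx, rfl⟩ := exists_rep hn hS g
  rw [SS_left (fun p hp g => by rw [lv_PP_mul P hp]) hp]
  rw [hg] at hx
  have hk : k + 1 < nn P s t := by rw [← hg]; exact cw_lt P hn hS _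
  have h1 : tau P t s (k + 1) * σ P (Lt t s k) = tau P t s k := by rw [tau_succ', mul_σ_cancel]
  have h2 := SS_dn P (fun w => φ (cw P s w)) hx (r := Lt t s k) (by
    rw [h1, len_tau P t s (by rw [nn_comm]; omega), len_tau P t s (by rw [nn_comm]; omega)]
    omega)
  rw [h1, cw_tau P (by omega), cw_tau P hk] at h2
  exact h2

/-- at level `k`, upwards -/
theorem SS_lv_up (hn : 0 < nn P s t) (hS : ∀ r : P.S, r = s ∨ r = t) (φ : ℕ → ℝ) {g : G} {k : ℕ} (hg : lv P s g = k)
    (hk : k + 1 < nn P s t) :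
    SS P (Lt t s k) (fun x => φ (lv P s x)) g = bb P * (φ k + qq P (Lt t s k) * φ (k + 1)) := by
  obtain ⟨p, hp, x, hx, rfl⟩ := exists_rep hn hS g
  rw [SS_left (fun p hp g => by rw [lv_PP_mul P hp]) hp]
  rw [hg] at hx
  have h1 : tau P t s k * σ P (Lt t s k) = tau P t s (k + 1) := by rw [tau_succ']
  have h2 := SS_up P (fun w => φ (cw P s w)) hx (r := Lt t s k) (by
    rw [h1, len_tau P t s (by rw [nn_comm]; omega), len_tau P t s (by rw [nn_comm]; omega)]
    omega)
  rw [h1, cw_tau P (by omega), cw_tau P hk] at h2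
  exact h2

/-- at the last level, upwards -/
theorem SS_lv_top (hn : 0 < nn P s t) (hS : ∀ r : P.S, r = s ∨ r = t) (φ : ℕ → ℝ) {g : G} {k : ℕ} (hg : lv P s g = k)
    (hk : k + 1 = nn P s t) :
    SS P (Lt t s k) (fun x => φ (lv P s x)) g = bb P * (1 + qq P (Lt t s k)) * φ k := by
  obtain ⟨p, hp, x, hx, rfl⟩ := exists_rep hn hS g
  rw [SS_left (fun p hp g => by rw [lv_PP_mul P hp]) hp]
  rw [hg] at hx
  have h1 : tau P t s k * σ P (Lt t s k) = tau P t s (k + 1) := by rw [tau_succ']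
  have h2 := SS_up P (fun w => φ (cw P s w)) hx (r := Lt t s k) (by
    rw [h1, len_tau P t s (by rw [nn_comm]; omega), len_tau P t s (by rw [nn_comm]; omega)]
    omega)
  rw [h1, cw_tau P (by omega), cw_tau_nn P hk] at h2
  refine Eq.trans h2 ?_
  ring

/-- at level zero, the type `s` -/
theorem SS_lv_zero (hn : 1 < nn P s t) (hS : ∀ r : P.S, r = s ∨ r = t) (φ : ℕ → ℝ) {g : G} (hg : lv P s g = 0) :
    SS P s (fun x => φ (lv P s x)) g = bb P * (1 + qq P s) * φ 0 := by
  obtain ⟨p, hp, x, hx, rfl⟩ := exists_rep (by omega) hS g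
  rw [SS_left (fun p hp g => by rw [lv_PP_mul P hp]) hp]
  rw [hg, tau_zero] at hx
  have h2 := SS_up P (fun w => φ (cw P s w)) hx (r := s) (by
    rw [len_one, one_mul, len_σ]; omega)
  have h3 : cw P s (1 : W P) = 0 := by unfold cw; rw [len_one]; omega
  have h4 : cw P s (σ P s) = 0 := by
    have := cw_σ_mul P s 1
    rw [mul_one] at this
    rw [this, h3]
  rw [one_mul, h3, h4] at h2
  refine Eq.trans h2 ?_
  ring

end sums

end Cfsg.Agent.H93.FH
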