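import Mathlib
import Cfsg.Agent.H93.FH.Sums

/-!
Rank two (B,N)-pairs: the double cosets of a minimal parabolic subgroup.
-/

set_option autoImplicit false

namespace Cfsg.Agent.H93.FH

open Cfsg.Agent.BNP Cfsg.Agent

variable {G : Type*} [Group G] (P : Cfsg.BNPair G)
variable {s t : P.S}

/-- index of the double coset of the standard dihedral subgroup of order two -/
noncomputable def dw (s : P.S) (w : W P) : ℕ := (cw P s w + 1) / 2

theorem dw_σ_mul (w : W P) : dw P s (σ P s * w) = dw P s w := by rw [dw, cw_σ_mul, dw]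

theorem cw_one : cw P s (1 : W P) = 0 := by unfold cw; rw [len_one]; omega

theorem cw_σ : cw P s (σ P s) = 0 := by
  have := cw_σ_mul P s 1
  rw [mul_one] at this
  rw [this, cw_one]

theorem dw_tau_mul_σ {k : ℕ} (hk : k < nn P s t) : dw P s (tau P t s k * σ P s) = dw P s (tau P t s k) := by
  rcases Nat.even_or_odd' k with ⟨m, rfl | rfl⟩
  · cases m with
    | zero =>
      rw [mul_zero, tau_zero, one_mul, dw, dw, cw_one, cw_σ]
    | succ m =>
      have h1 : tau P t s (2 * (m + 1)) = tau P t s (2 * m + 1) * σ P s := by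
        rw [show 2 * (m + 1) = (2 * m + 1) + 1 by ring, tau_succ', Lt_succ, Lt, if_pos (even_two_mul m)]
      have h2 : tau P t s (2 * (m + 1)) * σ P s = tau P t s (2 * m + 1) := by rw [h1, mul_σ_cancel]
      rw [h2, dw, dw, cw_tau P hk, cw_tau P (by omega)]
      omega
  · have h1 : tau P t s (2 * m + 1) * σ P s = tau P t s (2 * m + 1 + 1) := by
      rw [tau_succ' P t s (2 * m + 1), Lt_succ, Lt, if_pos (even_two_mul m)]
    rw [h1]
    by_cases hk' : 2 * m + 1 + 1 < nn P s t
    · rw [dw, dw, cw_tau P hk, cw_tau P hk']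
      omega
    · rw [dw, dw, cw_tau P hk, cw_tau_nn P (by omega)]

theorem dw_mul_σ (hn : 0 < nn P s t) (hS : ∀ r : P.S, r = s ∨ r = t) (w : W P) : dw P s (w * σ P s) = dw P s w := by
  obtain ⟨k, hk, rfl | rfl⟩ := exists_tau P hn hS w
  · exact dw_tau_mul_σ P hk
  · rw [mul_assoc, dw_σ_mul, dw_σ_mul]; exact dw_tau_mul_σ P hk

theorem dw_inv (hn : 0 < nn P s t) (hS : ∀ r : P.S, r = s ∨ r = t) (w : W P) : dw P s w⁻¹ = dw P s w := by
  have key : ∀ k < nn P s t, dw P s (tau P t s k)⁻¹ = dw P s (tau P t s k) := by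
    intro k hk
    rcases Nat.even_or_odd' k with ⟨m, rfl | rfl⟩
    · cases m with
      | zero =>
        rw [mul_zero, tau_zero, inv_one]
      | succ m =>
        have h1 : tau P t s (2 * (m + 1)) = tau P t s (2 * m + 1) * σ P s := by
          rw [show 2 * (m + 1) = (2 * m + 1) + 1 by ring, tau_succ', Lt_succ, Lt, if_pos (even_two_mul m)]
        rw [h1, mul_inv_rev, σ_inv, dw_σ_mul, dw_mul_σ P hn hS, tau_odd_inv]
    · rw [tau_odd_inv]
  obtain ⟨k, hk, rfl | rfl⟩ := exists_tau P hn hS w
  · exact key k hk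
  · rw [mul_inv_rev, σ_inv, dw_mul_σ P hn hS, dw_σ_mul]; exact key k hk

/-- index of the double coset of the minimal parabolic subgroup -/
noncomputable def dv (s : P.S) (g : G) : ℕ := dw P s (wg P g)

theorem dv_eq (g : G) : dv P s g = (lv P s g + 1) / 2 := rfl

theorem dv_PP_mul {p : G} (hp : p ∈ PP P s) (g : G) : dv P s (p * g) = dv P s g := by
  rw [dv_eq, lv_PP_mul P hp, dv_eq]

theorem dv_inv (hn : 0 < nn P s t) (hS : ∀ r : P.S, r = s ∨ r = t) (g : G) : dv P s g⁻¹ = dv P s g := by
  rw [dv, wg_inv, dw_inv P hn hS, dv]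

theorem dv_mul_PP (hn : 0 < nn P s t) (hS : ∀ r : P.S, r = s ∨ r = t) {p : G} (hp : p ∈ PP P s) (g : G) :
    dv P s (g * p) = dv P s g := by
  rw [← dv_inv P hn hS, mul_inv_rev, dv_PP_mul P (inv_mem hp), dv_inv P hn hS]

theorem dv_one : dv P s (1 : G) = 0 := by
  have : wg P (1 : G) = 1 := wg_eq P ((mem_C_one P).2 (one_mem _))
  rw [dv, this, dw, cw_one]

section counting

variable [Fintype G]

open scoped Classical in
/-- the size of a Bruhat cell -/
noncomputable def cr (w : W P) : ℝ := ∑ g : G, if wg P g = w then 1 else 0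

theorem cr_one : cr P 1 = bb P := by
  classical
  unfold cr bb
  rw [Finset.sum_boole]
  congr 1
  rw [Nat.card_eq_fintype_card]
  rw [Fintype.card_subtype]
  congr 1
  ext g
  simp only [Finset.mem_filter, Finset.mem_univ, true_and]
  constructor
  · intro h
    have := wg_spec P g
    rw [h] at this
    exact (mem_C_one P).1 this
  · intro h
    exact wg_eq P ((mem_C_one P).2 h)

theorem sum_SS (r : P.S) (F : G → ℝ) : ∑ g : G, SS P r F g = bb P * (1 + qq P r) * ∑ g : G, F g := by
  classical
  unfold SS
  rw [Finset.sum_comm]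
  have h1 : ∀ p : PP P r, ∑ g : G, F (g * p) = ∑ g : G, F g := by
    intro p
    exact Fintype.sum_equiv (Equiv.mulRight (p : G)) _ _ (fun g => rfl)
  rw [Finset.sum_congr rfl (fun p _ => h1 p), Finset.sum_const, nsmul_eq_mul, Finset.card_univ, ← Nat.card_eq_fintype_card,
    card_PP]
  unfold bb
  push_cast
  ring

theorem cr_mul_σ {r : P.S} {w : W P} (h : len P w < len P (w * σ P r)) : cr P (w * σ P r) = qq P r * cr P w := by
  classical
  have h1 : ∀ g : G, SS P r (fun x => (fun v : W P => if v = w then (1 : ℝ) else 0) (wg P x)) g =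
      bb P * ((if wg P g = w then 1 else 0) + (if wg P g = w * σ P r then 1 else 0)) := by
    intro g
    have hne : w ≠ w * σ P r := by intro h'; rw [← h'] at h; exact lt_irrefl _ h
    rcases len_mul_σ_cases P r (wg P g) with h2 | h2
    · have h3 := SS_up P (fun v : W P => if v = w then (1 : ℝ) else 0) (r := r) (wg_spec P g) (by omega)
      rw [h3]
      by_cases h4 : wg P g = w
      · rw [h4, if_pos rfl, if_neg hne, if_neg (fun h' => hne h'.symm)]
        ring
      · rw [if_neg h4]
        have h5 : ¬ (wg P g * σ P r = w) := by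
          intro h5
          rw [← h5, mul_σ_cancel] at h
          omega
        have h6 : ¬ (wg P g = w * σ P r) := by
          intro h6
          apply h5
          rw [h6, mul_σ_cancel]
        rw [if_neg h5, if_neg h6]
        ring
    · have h3 := SS_dn P (fun v : W P => if v = w then (1 : ℝ) else 0) (r := r) (wg_spec P g) (by omega)
      rw [h3]
      have h4 : ¬ (wg P g = w) := by
        intro h4
        rw [← h4] at h
        omega
      rw [if_neg h4]
      by_cases h5 : wg P g * σ P r = w
      · have h6 : wg P g = w * σ P r := by rw [← h5, mul_σ_cancel]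
        rw [if_pos h5, if_pos h6]
        ring
      · have h6 : ¬ (wg P g = w * σ P r) := by
          intro h6
          apply h5
          rw [h6, mul_σ_cancel]
        rw [if_neg h5, if_neg h6]
        ring
  have h2 := sum_SS P r (fun x => (fun v : W P => if v = w then (1 : ℝ) else 0) (wg P x))
  rw [Finset.sum_congr rfl (fun g _ => h1 g), ← Finset.mul_sum, Finset.sum_add_distrib] at h2
  have h3 : bb P * (cr P w + cr P (w * σ P r)) = bb P * (1 + qq P r) * cr P w := h2
  have h4 : cr P w + cr P (w * σ P r) = (1 + qq P r) * cr P w := by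
    apply mul_left_cancel₀ (bb_pos P).ne'
    rw [h3]; ring
  linarith

/-- the product of the parameters along an alternating word -/
noncomputable def qp (s t : P.S) : ℕ → ℝ
  | 0 => 1
  | k + 1 => qq P (Lt s t k) * qp s t k

theorem cr_tau {k : ℕ} (hk : k ≤ nn P s t) : cr P (tau P s t k) = bb P * qp P s t k := by
  induction k with
  | zero => rw [tau_zero, cr_one, qp, mul_one]
  | succ k ih =>
    rw [tau_succ', cr_mul_σ, ih (by omega), qp]
    · ring
    · rw [← tau_succ', len_tau P s t hk, len_tau P s t (by omega)]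
      omega

omit [Fintype G] in
theorem qp_two_mul (s t : P.S) (i : ℕ) : qp P s t (2 * i) = ((qq P s : ℝ) * qq P t) ^ i := by
  induction i with
  | zero => simp [qp]
  | succ i ih =>
    rw [show 2 * (i + 1) = (2 * i + 1) + 1 by ring, qp, qp, ih, Lt_succ, Lt, if_pos (even_two_mul i), Lt, if_pos (even_two_mul i)]
    ring

omit [Fintype G] in
theorem qp_two_mul_add_one (s t : P.S) (i : ℕ) : qp P s t (2 * i + 1) = qq P s * ((qq P s : ℝ) * qq P t) ^ i := by
  rw [qp, qp_two_mul, Lt, if_pos (even_two_mul i)]

omit [Fintype G] in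
theorem qp_succ (s t : P.S) (k : ℕ) : qp P s t (k + 1) = qq P s * qp P t s k := by
  rcases Nat.even_or_odd' k with ⟨m, rfl | rfl⟩
  · rw [qp_two_mul_add_one, qp_two_mul]
    ring
  · rw [qp_two_mul_add_one, show 2 * m + 1 + 1 = 2 * (m + 1) by ring, qp_two_mul]
    ring

/-- for odd `nn` the two parameters agree -/
theorem qq_eq_of_odd {m : ℕ} (h : nn P s t = 2 * m + 1) : qq P s = qq P t := by
  have h1 := cr_tau P (s := s) (t := t) le_rfl
  have h2 := cr_tau P (s := t) (t := s) le_rfl
  rw [nn_comm, ← tau_nn, h1] at h2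
  have h3 := mul_left_cancel₀ (bb_pos P).ne' h2
  rw [h, qp_two_mul_add_one, qp_two_mul_add_one, mul_comm (qq P t : ℝ) (qq P s : ℝ)] at h3
  have ha := two_le_qq P s
  have hb := two_le_qq P t
  have h4 : ((qq P s : ℝ) * qq P t) ^ m ≠ 0 := by
    apply pow_ne_zero
    apply mul_ne_zero
    · have : (qq P s : ℝ) ≥ 2 := by exact_mod_cast ha
      linarith
    · have : (qq P t : ℝ) ≥ 2 := by exact_mod_cast hb
      linarith
  have h5 := mul_right_cancel₀ h4 h3
  exact_mod_cast h5

/-- sums of level functions -/
theorem sum_lv (hn : 0 < nn P s t) (hS : ∀ r : P.S, r = s ∨ r = t) (φ : ℕ → ℝ) :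
    ∑ g : G, φ (lv P s g) = (1 + qq P s) * bb P * ∑ k ∈ Finset.range (nn P s t), qp P t s k * φ k := by
  classical
  have h1 : ∀ g : G, φ (lv P s g) = ∑ k ∈ Finset.range (nn P s t),
      ((if wg P g = tau P t s k then (1 : ℝ) else 0) + (if wg P g = σ P s * tau P t s k then 1 else 0)) * φ k := by
    intro g
    rw [Finset.sum_eq_single (lv P s g)]
    · rcases (eq_of_cw P hn hS (w := wg P g) (k := lv P s g) rfl) with h | h
      · have h' : ¬ (wg P g = σ P s * tau P t s (lv P s g)) := by
          intro h'
          rw [show tau P t s (lv P s g) = wg P g from h.symm] at h'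
          exact σ_ne_one P s (mul_eq_right.1 h'.symm)
        rw [if_pos h, if_neg h']
        ring
      · have h' : ¬ (wg P g = tau P t s (lv P s g)) := by
          intro h'
          rw [← h'] at h
          exact σ_ne_one P s (mul_eq_right.1 h.symm)
        rw [if_neg h', if_pos h]
        ring
    · intro k hk hne
      rw [Finset.mem_range] at hk
      rw [if_neg, if_neg]
      · ring
      · intro h
        apply hne
        rw [lv, h, cw_σ_mul, cw_tau P hk]
      · intro h
        apply hne
        rw [lv, h, cw_tau P hk]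
    · intro h
      exact absurd (Finset.mem_range.2 (cw_lt P hn hS _)) h
  rw [Finset.sum_congr rfl (fun g _ => h1 g), Finset.sum_comm, Finset.mul_sum]
  apply Finset.sum_congr rfl
  intro k hk
  rw [Finset.mem_range] at hk
  rw [← Finset.sum_mul, Finset.sum_add_distrib]
  have h2 : (∑ g : G, if wg P g = tau P t s k then (1 : ℝ) else 0) = bb P * qp P t s k :=
    cr_tau P (by rw [nn_comm]; omega)
  have h3 : (∑ g : G, if wg P g = σ P s * tau P t s k then (1 : ℝ) else 0) = bb P * (qq P s * qp P t s k) := by
    have := cr_tau P (s := s) (t := t) (k := k + 1) hk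
    rw [qp_succ, tau_succ] at this
    exact this
  rw [h2, h3]
  ring

end counting

end Cfsg.Agent.H93.FH
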