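import Mathlib
import Cfsg.Agent.H93.FH.Dv

/-!
Rank two (B,N)-pairs: eigenfunctions and multiplicities.
-/

set_option autoImplicit false

namespace Cfsg.Agent.H93.FH

open Cfsg.Agent.BNP Cfsg.Agent

variable {G : Type*} [Group G] {P : Cfsg.BNPair G}
variable {s t : P.S}

section reps

variable (P s t)

/-- representatives -/
noncomputable def rep : ℕ → G
  | 0 => 1
  | i + 1 => (C_nonempty P (tau P t s (2 * i + 1))).choose

variable {P s t}

theorem eq_rep (hn : 0 < nn P s t) (hS : ∀ r : P.S, r = s ∨ r = t) {F : G → ℝ}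
    (h1 : ∀ p ∈ PP P s, ∀ g, F (p * g) = F g) (h2 : ∀ p ∈ PP P s, ∀ g, F (g * p) = F g) (g : G) :
    F g = F (rep P s t (dv P s g)) := by
  obtain ⟨p, hp, x, hx, hg⟩ := exists_rep hn hS g
  have hF : F g = F x := by rw [hg]; exact h1 p hp x
  rw [hF]
  have key : ∀ i : ℕ, ∀ y ∈ C P (tau P t s (2 * i + 1)), F y = F (rep P s t (i + 1)) := by
    intro i y hy
    have hz := (C_nonempty P (tau P t s (2 * i + 1))).choose_spec
    obtain ⟨b, hb, b', hb', e⟩ := exists_of_mem_C P hz hy
    rw [e, h2 b' (B_le_PP P s hb'), h1 b (B_le_PP P s hb)]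
    rfl
  have hd : dv P s g = (lv P s g + 1) / 2 := rfl
  rcases Nat.even_or_odd' (lv P s g) with ⟨m, hm | hm⟩
  · cases m with
    | zero =>
      rw [hm, mul_zero, tau_zero] at hx
      have hxB := (mem_C_one P).1 hx
      rw [hd, hm]
      have := h2 x (B_le_PP P s hxB) 1
      rw [one_mul] at this
      exact this
    | succ m =>
      have h3 : tau P t s (2 * (m + 1)) = tau P t s (2 * m + 1) * σ P s := by
        rw [show 2 * (m + 1) = (2 * m + 1) + 1 by ring, tau_succ', Lt_succ, Lt, if_pos (even_two_mul m)]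
      rw [hm, h3] at hx
      obtain ⟨y, hy, z, hz, e⟩ := exists_factor P hx
      rw [e, h2 z ((mem_PP P).2 (Or.inr hz)), key m y hy, hd, hm]
      congr 2
      omega
  · rw [hm] at hx
    rw [key m x hx, hd, hm]
    congr 2
    omega

end reps

/-- the eigenvector conditions -/
structure EigSeq (a b x : ℝ) (n : ℕ) (V : ℕ → ℝ) : Prop where
  zero : (1 + a) * (V 0 + b * V 1) = (a + b + x) * V 0
  mid : ∀ i, 2 * i + 3 < n → V i + (a + b) * V (i + 1) + a * b * V (i + 2) = (a + b + x) * V (i + 1)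
  odd : ∀ i, 2 * i + 3 = n → V i + b * V (i + 1) + a * (1 + b) * V (i + 1) = (a + b + x) * V (i + 1)
  even : ∀ i, 2 * i + 2 = n → (1 + a) * (V i + b * V (i + 1)) = (a + b + x) * V (i + 1)

variable [Fintype G]

/-- auxiliary level function -/
noncomputable def psi (P : Cfsg.BNPair G) (s t : P.S) (V : ℕ → ℝ) (k : ℕ) : ℝ :=
  if 2 * (k / 2) + 1 < nn P s t then bb P * (V (k / 2) + qq P t * V (k / 2 + 1)) else bb P * (1 + qq P t) * V (k / 2)

theorem SSt (hn : 1 < nn P s t) (hS : ∀ r : P.S, r = s ∨ r = t) (V : ℕ → ℝ) (g : G) :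
    SS P t (fun x => V (dv P s x)) g = psi P s t V (lv P s g) := by
  have hlt : lv P s g < nn P s t := cw_lt P (by omega) hS _
  have hfun : (fun x => V (dv P s x)) = (fun x => (fun j => V ((j + 1) / 2)) (lv P s x)) := rfl
  rw [hfun]
  unfold psi
  rcases Nat.even_or_odd' (lv P s g) with ⟨m, hm | hm⟩
  · have hL : Lt t s (2 * m) = t := by rw [Lt, if_pos (even_two_mul m)]
    have hk : lv P s g / 2 = m := by omega
    rw [hk]
    by_cases h : 2 * m + 1 < nn P s t
    · rw [if_pos h]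
      have := SS_lv_up (by omega) hS (fun j => V ((j + 1) / 2)) hm h
      rw [hL] at this
      rw [this]
      show bb P * (V ((2 * m + 1) / 2) + qq P t * V ((2 * m + 1 + 1) / 2)) = _
      rw [show (2 * m + 1) / 2 = m by omega, show (2 * m + 1 + 1) / 2 = m + 1 by omega]
    · rw [if_neg h]
      have := SS_lv_top (by omega) hS (fun j => V ((j + 1) / 2)) hm (by omega)
      rw [hL] at this
      rw [this]
      show bb P * (1 + qq P t) * V ((2 * m + 1) / 2) = _
      rw [show (2 * m + 1) / 2 = m by omega]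
  · have hL : Lt t s (2 * m) = t := by rw [Lt, if_pos (even_two_mul m)]
    have hk : lv P s g / 2 = m := by omega
    rw [hk, if_pos (by omega)]
    have := SS_lv_dn (by omega) hS (fun j => V ((j + 1) / 2)) hm
    rw [hL] at this
    rw [this]
    show bb P * (V ((2 * m + 1) / 2) + qq P t * V ((2 * m + 1 + 1) / 2)) = _
    rw [show (2 * m + 1) / 2 = m by omega, show (2 * m + 1 + 1) / 2 = m + 1 by omega]

theorem SSst_zero (hn : 1 < nn P s t) (hS : ∀ r : P.S, r = s ∨ r = t) (V : ℕ → ℝ) {g : G} (hg : lv P s g = 0) :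
    SS P s (SS P t (fun x => V (dv P s x))) g = bb P ^ 2 * ((1 + qq P s) * (V 0 + qq P t * V 1)) := by
  have h1 : SS P t (fun x => V (dv P s x)) = fun x => psi P s t V (lv P s x) := funext (SSt hn hS V)
  rw [h1, SS_lv_zero hn hS _ hg]
  unfold psi
  rw [if_pos (by omega)]
  show bb P * (1 + qq P s) * (bb P * (V 0 + qq P t * V 1)) = _
  ring

theorem SSst_two (hn : 1 < nn P s t) (hS : ∀ r : P.S, r = s ∨ r = t) (V : ℕ → ℝ) {g : G} {i : ℕ}
    (hi : 2 * i + 2 < nn P s t) (hg : dv P s g = i + 1) :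
    SS P s (SS P t (fun x => V (dv P s x))) g = bb P * (psi P s t V (2 * i + 1) + qq P s * psi P s t V (2 * i + 2)) := by
  have h1 : SS P t (fun x => V (dv P s x)) = fun x => psi P s t V (lv P s x) := funext (SSt hn hS V)
  rw [h1]
  have hL : Lt t s (2 * i + 1) = s := by rw [Lt_succ, Lt, if_pos (even_two_mul i)]
  have hd : dv P s g = (lv P s g + 1) / 2 := rfl
  have hcase : lv P s g = 2 * i + 1 ∨ lv P s g = 2 * i + 1 + 1 := by omega
  rcases hcase with h | h
  · have := SS_lv_up (by omega) hS (psi P s t V) h hi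
    rwa [hL] at this
  · have := SS_lv_dn (by omega) hS (psi P s t V) h
    rwa [hL] at this

theorem SSst_mid (hn : 1 < nn P s t) (hS : ∀ r : P.S, r = s ∨ r = t) (V : ℕ → ℝ) {g : G} {i : ℕ}
    (hi : 2 * i + 3 < nn P s t) (hg : dv P s g = i + 1) :
    SS P s (SS P t (fun x => V (dv P s x))) g =
      bb P ^ 2 * (V i + (qq P s + qq P t) * V (i + 1) + qq P s * qq P t * V (i + 2)) := by
  rw [SSst_two hn hS V (by omega) hg]
  unfold psi
  rw [show (2 * i + 1) / 2 = i by omega, show (2 * i + 2) / 2 = i + 1 by omega, if_pos (by omega), if_pos (by omega)]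
  ring

theorem SSst_odd (hn : 1 < nn P s t) (hS : ∀ r : P.S, r = s ∨ r = t) (V : ℕ → ℝ) {g : G} {i : ℕ}
    (hi : 2 * i + 3 = nn P s t) (hg : dv P s g = i + 1) :
    SS P s (SS P t (fun x => V (dv P s x))) g =
      bb P ^ 2 * (V i + qq P t * V (i + 1) + qq P s * (1 + qq P t) * V (i + 1)) := by
  rw [SSst_two hn hS V (by omega) hg]
  unfold psi
  rw [show (2 * i + 1) / 2 = i by omega, show (2 * i + 2) / 2 = i + 1 by omega, if_pos (by omega), if_neg (by omega)]
  ring

theorem SSst_even (hn : 1 < nn P s t) (hS : ∀ r : P.S, r = s ∨ r = t) (V : ℕ → ℝ) {g : G} {i : ℕ}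
    (hi : 2 * i + 2 = nn P s t) (hg : dv P s g = i + 1) :
    SS P s (SS P t (fun x => V (dv P s x))) g =
      bb P ^ 2 * ((1 + qq P s) * (V i + qq P t * V (i + 1))) := by
  have h1 : SS P t (fun x => V (dv P s x)) = fun x => psi P s t V (lv P s x) := funext (SSt hn hS V)
  rw [h1]
  have hL : Lt t s (2 * i + 1) = s := by rw [Lt_succ, Lt, if_pos (even_two_mul i)]
  have hd : dv P s g = (lv P s g + 1) / 2 := rfl
  have hlt : lv P s g < nn P s t := cw_lt P (by omega) hS _
  have h : lv P s g = 2 * i + 1 := by omega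
  have := SS_lv_top (by omega) hS (psi P s t V) h hi
  rw [hL] at this
  rw [this]
  unfold psi
  rw [show (2 * i + 1) / 2 = i by omega, if_pos (by omega)]
  ring

theorem SSst_eig (hn : 1 < nn P s t) (hS : ∀ r : P.S, r = s ∨ r = t) {U : ℕ → ℝ} {x : ℝ}
    (hU : EigSeq (qq P s) (qq P t) x (nn P s t) U) (g : G) :
    SS P s (SS P t (fun x => U (dv P s x))) g = bb P ^ 2 * (qq P s + qq P t + x) * U (dv P s g) := by
  have hd : dv P s g = (lv P s g + 1) / 2 := rfl
  have hlt : lv P s g < nn P s t := cw_lt P (by omega) hS _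
  obtain hi | ⟨i, hi⟩ : dv P s g = 0 ∨ ∃ i, dv P s g = i + 1 := by
    cases h : dv P s g with
    | zero => left; rfl
    | succ i => right; exact ⟨i, rfl⟩
  · rw [SSst_zero hn hS U (g := g) (by omega), hi, hU.zero]
    ring
  · rw [hi]
    rcases lt_trichotomy (2 * i + 3) (nn P s t) with h | h | h
    · rw [SSst_mid hn hS U h hi, hU.mid i h]
      ring
    · rw [SSst_odd hn hS U h hi, hU.odd i h]
      ring
    · have h' : 2 * i + 2 = nn P s t := by omega
      rw [SSst_even hn hS U h' hi, hU.even i h']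
      ring

omit [Fintype G] in
theorem exists_lv {k : ℕ} (hk : k < nn P s t) : ∃ g : G, lv P s g = k := by
  obtain ⟨g, hg⟩ := C_nonempty P (tau P t s k)
  exact ⟨g, by rw [lv, wg_eq P hg, cw_tau P hk]⟩

theorem uniq (hn : 1 < nn P s t) (hS : ∀ r : P.S, r = s ∨ r = t) {U V : ℕ → ℝ} {x : ℝ}
    (hU : EigSeq (qq P s) (qq P t) x (nn P s t) U) (hU0 : U 0 = 1)
    (hV : ∀ g, SS P s (SS P t (fun x => V (dv P s x))) g = bb P ^ 2 * (qq P s + qq P t + x) * V (dv P s g)) (g : G) :
    V (dv P s g) = V 0 * U (dv P s g) := by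
  have ha : (0 : ℝ) < qq P s := by
    have := two_le_qq P s
    have : (2 : ℝ) ≤ qq P s := by exact_mod_cast this
    linarith
  have hb : (0 : ℝ) < qq P t := by
    have := two_le_qq P t
    have : (2 : ℝ) ≤ qq P t := by exact_mod_cast this
    linarith
  have hbb := bb_pos P
  have main : ∀ i : ℕ, (i = 0 ∨ 2 * i < nn P s t + 1) → V i = V 0 * U i ∧ (2 * i + 1 < nn P s t → V (i + 1) = V 0 * U (i + 1)) := by
    intro i
    induction i with
    | zero =>
      intro _
      refine ⟨by rw [hU0, mul_one], fun _ => ?_⟩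
      obtain ⟨g, hg⟩ := exists_lv (P := P) (s := s) (t := t) (k := 0) (by omega)
      have h1 := hV g
      have hd : dv P s g = 0 := by rw [dv_eq, hg]
      rw [SSst_zero hn hS V hg, hd] at h1
      have h2 : (1 + (qq P s : ℝ)) * (V 0 + qq P t * V 1) = (qq P s + qq P t + x) * V 0 := by
        apply mul_left_cancel₀ (pow_ne_zero 2 hbb.ne')
        rw [h1]; ring
      have h3 := hU.zero
      rw [hU0] at h3
      have h4 : (1 + (qq P s : ℝ)) * qq P t * (V 1 - V 0 * U 1) = 0 := by linear_combination h2 - V 0 * h3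
      have h5 : (1 + (qq P s : ℝ)) * qq P t ≠ 0 := by positivity
      rcases mul_eq_zero.1 h4 with h | h
      · exact absurd h h5
      · simp only [zero_add]; linarith
    | succ i ih =>
      intro h
      obtain ⟨h1, h2⟩ := ih (by omega)
      have h3 := h2 (by omega)
      refine ⟨h3, fun hlt => ?_⟩
      obtain ⟨g, hg⟩ := exists_lv (P := P) (s := s) (t := t) (k := 2 * i + 1) (by omega)
      have hd : dv P s g = i + 1 := by rw [dv_eq, hg]; omega
      have h4 := hV g
      rw [SSst_mid hn hS V (by omega) hd, hd] at h4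
      have h5 : V i + (qq P s + qq P t) * V (i + 1) + qq P s * qq P t * V (i + 2) = (qq P s + qq P t + x) * V (i + 1) := by
        apply mul_left_cancel₀ (pow_ne_zero 2 hbb.ne')
        rw [h4]; ring
      have h6 := hU.mid i (by omega)
      rw [h1, h3] at h5
      have h7 : (qq P s : ℝ) * qq P t * (V (i + 2) - V 0 * U (i + 2)) = 0 := by linear_combination h5 - V 0 * h6
      have h8 : (qq P s : ℝ) * qq P t ≠ 0 := by positivity
      rcases mul_eq_zero.1 h7 with h | h
      · exact absurd h h8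
      · show V (i + 2) = V 0 * U (i + 2)
        linarith
  have hd : dv P s g = (lv P s g + 1) / 2 := rfl
  have hlt : lv P s g < nn P s t := cw_lt P (by omega) hS _
  exact (main (dv P s g) (by omega)).1

/-- convolution -/
noncomputable def conv (u F : G → ℝ) (g : G) : ℝ := ∑ h : G, u h * F (h⁻¹ * g)

theorem SS_conv (r : P.S) (u F : G → ℝ) : SS P r (conv u F) = conv u (SS P r F) := by
  classical
  funext g
  unfold SS conv
  rw [Finset.sum_comm]
  apply Finset.sum_congr rfl
  intro h _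
  rw [Finset.mul_sum]
  apply Finset.sum_congr rfl
  intro p _
  rw [mul_assoc]

theorem conv_self (hn : 1 < nn P s t) (hS : ∀ r : P.S, r = s ∨ r = t) {U : ℕ → ℝ} {x : ℝ}
    (hU : EigSeq (qq P s) (qq P t) x (nn P s t) U) (hU0 : U 0 = 1) (g : G) :
    conv (fun h => U (dv P s h)) (fun h => U (dv P s h)) g = (∑ h : G, U (dv P s h) ^ 2) * U (dv P s g) := by
  classical
  set u : G → ℝ := fun h => U (dv P s h) with hu
  have hl : ∀ p ∈ PP P s, ∀ g, conv u u (p * g) = conv u u g := by
    intro p hp g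
    unfold conv
    refine Fintype.sum_equiv (Equiv.mulLeft p⁻¹) _ _ ?_
    intro h
    show u h * u (h⁻¹ * (p * g)) = u (p⁻¹ * h) * u ((p⁻¹ * h)⁻¹ * g)
    rw [show (p⁻¹ * h)⁻¹ * g = h⁻¹ * (p * g) by group]
    congr 1
    show U (dv P s h) = U (dv P s (p⁻¹ * h))
    rw [dv_PP_mul P (inv_mem hp)]
  have hr : ∀ p ∈ PP P s, ∀ g, conv u u (g * p) = conv u u g := by
    intro p hp g
    unfold conv
    apply Finset.sum_congr rfl
    intro h _
    congr 1
    show U (dv P s (h⁻¹ * (g * p))) = U (dv P s (h⁻¹ * g))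
    rw [← mul_assoc, dv_mul_PP P (by omega) hS hp]
  have hrep := eq_rep (F := conv u u) (by omega) hS hl hr
  set V : ℕ → ℝ := fun i => conv u u (rep P s t i) with hV
  have hfun : conv u u = fun g => V (dv P s g) := funext hrep
  have hE : ∀ g, SS P s (SS P t (fun x => V (dv P s x))) g = bb P ^ 2 * (qq P s + qq P t + x) * V (dv P s g) := by
    intro g
    rw [← hfun, SS_conv, SS_conv]
    have h1 : SS P s (SS P t u) = fun g => bb P ^ 2 * (qq P s + qq P t + x) * u g := funext (SSst_eig hn hS hU)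
    rw [h1]
    have h2 : V (dv P s g) = conv u u g := (hrep g).symm
    rw [h2]
    unfold conv
    rw [Finset.mul_sum]
    apply Finset.sum_congr rfl
    intro h _
    ring
  have h3 := uniq hn hS hU hU0 hE g
  have h4 : conv u u g = V (dv P s g) := hrep g
  rw [h4, h3]
  congr 1
  have h5 : V 0 = conv u u 1 := by
    rw [hrep 1, dv_one]
  rw [h5]
  unfold conv
  apply Finset.sum_congr rfl
  intro h _
  rw [mul_one]
  show U (dv P s h) * U (dv P s h⁻¹) = _
  rw [dv_inv P (by omega) hS, sq]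

theorem exists_nat_mult (hn : 1 < nn P s t) (hS : ∀ r : P.S, r = s ∨ r = t) {U : ℕ → ℝ} {x : ℝ}
    (hU : EigSeq (qq P s) (qq P t) x (nn P s t) U) (hU0 : U 0 = 1) :
    ∃ k : ℕ, (Nat.card G : ℝ) = k * ∑ h : G, U (dv P s h) ^ 2 := by
  classical
  set γ : ℝ := ∑ h : G, U (dv P s h) ^ 2 with hγ
  have hγpos : 0 < γ := by
    rw [hγ]
    apply Finset.sum_pos' (fun h _ => sq_nonneg _)
    exact ⟨1, Finset.mem_univ _, by rw [dv_one, hU0]; norm_num⟩
  let M : Matrix G G ℝ := Matrix.of fun x y => U (dv P s (x⁻¹ * y)) / γ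
  have hM : M * M = M := by
    ext x z
    rw [Matrix.mul_apply]
    show ∑ y, U (dv P s (x⁻¹ * y)) / γ * (U (dv P s (y⁻¹ * z)) / γ) = U (dv P s (x⁻¹ * z)) / γ
    have h1 := conv_self hn hS hU hU0 (x⁻¹ * z)
    unfold conv at h1
    have h2 : ∑ y, U (dv P s (x⁻¹ * y)) / γ * (U (dv P s (y⁻¹ * z)) / γ) =
        (∑ h : G, U (dv P s h) * U (dv P s (h⁻¹ * (x⁻¹ * z)))) / γ ^ 2 := by
      rw [Finset.sum_div]
      refine Fintype.sum_equiv (Equiv.mulLeft x⁻¹) _ _ ?_
      intro y
      show _ = U (dv P s (x⁻¹ * y)) * U (dv P s ((x⁻¹ * y)⁻¹ * (x⁻¹ * z))) / γ ^ 2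
      rw [show (x⁻¹ * y)⁻¹ * (x⁻¹ * z) = y⁻¹ * z by group]
      field_simp
    rw [h2, h1, ← hγ]
    field_simp
  have hidem : IsIdempotentElem (Matrix.toLin' M) := by
    show Matrix.toLin' M * Matrix.toLin' M = Matrix.toLin' M
    rw [Module.End.mul_eq_comp, ← Matrix.toLin'_mul, hM]
  have htr := (LinearMap.IsIdempotentElem.isProj_range _ hidem).trace
  rw [Matrix.trace_toLin'_eq] at htr
  have htr2 : M.trace = (Nat.card G : ℝ) / γ := by
    unfold Matrix.trace
    have : ∀ x : G, M.diag x = 1 / γ := by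
      intro x
      show U (dv P s (x⁻¹ * x)) / γ = _
      rw [inv_mul_cancel, dv_one, hU0]
    rw [Finset.sum_congr rfl (fun x _ => this x), Finset.sum_const, nsmul_eq_mul, Finset.card_univ, Nat.card_eq_fintype_card]
    ring
  rw [htr2] at htr
  exact ⟨_, by rw [← htr]; field_simp⟩

end Cfsg.Agent.H93.FH
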