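import Mathlib
import Cfsg.Agent.H93.FH.Eig

/-!
Rank two (B,N)-pairs: the trigonometric solutions.
-/

set_option autoImplicit false

namespace Cfsg.Agent.H93.FH

open Cfsg.Agent.BNP Cfsg.Agent Real

section trig

/-- the trigonometric sequence -/
noncomputable def vv (κ θ : ℝ) (i : ℕ) : ℝ := cos (i * θ) + κ * sin (i * θ)

/-- the scaled trigonometric sequence -/
noncomputable def UU (Q κ θ : ℝ) (i : ℕ) : ℝ := vv κ θ i / Q ^ i

variable {a b Q κ θ : ℝ}

theorem vv_zero : vv κ θ 0 = 1 := by simp [vv]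

theorem vv_one : vv κ θ 1 = cos θ + κ * sin θ := by simp [vv]

theorem UU_zero : UU Q κ θ 0 = 1 := by simp [UU, vv_zero]

theorem vv_rec (i : ℕ) : vv κ θ i + vv κ θ (i + 2) = 2 * cos θ * vv κ θ (i + 1) := by
  unfold vv
  have h1 : ((i : ℕ) : ℝ) * θ = ((i + 1 : ℕ) : ℝ) * θ - θ := by push_cast; ring
  have h2 : ((i + 2 : ℕ) : ℝ) * θ = ((i + 1 : ℕ) : ℝ) * θ + θ := by push_cast; ring
  rw [h1, h2, cos_sub, sin_sub, cos_add, sin_add]
  ring

theorem UU_rec (hQ : Q ≠ 0) (hab : Q ^ 2 = a * b) (i : ℕ) :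
    UU Q κ θ i + a * b * UU Q κ θ (i + 2) = 2 * Q * cos θ * UU Q κ θ (i + 1) := by
  have h := vv_rec (κ := κ) (θ := θ) i
  unfold UU
  rw [← hab]
  have h1 : Q ^ i ≠ 0 := pow_ne_zero _ hQ
  rw [show Q ^ (i + 2) = Q ^ i * Q * Q by ring, show Q ^ (i + 1) = Q ^ i * Q by ring]
  field_simp
  linear_combination h

theorem eigSeq_even (hQ : 0 < Q) (hab : Q ^ 2 = a * b) (ha : 0 < a) (hb : 0 < b)
    {m : ℕ} (hm : sin (m * θ) = 0)
    (hκ : b * (a + 1) * (cos θ + κ * sin θ) = Q * (b - 1 + 2 * Q * cos θ)) :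
    EigSeq a b (2 * Q * cos θ) (2 * m) (UU Q κ θ) := by
  have h1 : b * (a + 1) ≠ 0 := by positivity
  have hU1 : UU Q κ θ 1 = (b - 1 + 2 * Q * cos θ) / (b * (a + 1)) := by
    unfold UU
    rw [vv_one, pow_one, div_eq_div_iff hQ.ne' h1]
    linear_combination hκ
  constructor
  · rw [UU_zero, hU1]
    field_simp
    ring
  · intro i _
    have := UU_rec (κ := κ) (θ := θ) hQ.ne' hab i
    linear_combination this
  · intro i hi
    omega
  · intro i hi
    have hi' : m = i + 1 := by omega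
    subst hi'
    have h2 : ((i : ℕ) : ℝ) * θ = ((i + 1 : ℕ) : ℝ) * θ - θ := by push_cast; ring
    have h3 : vv κ θ i = cos (((i + 1 : ℕ) : ℝ) * θ) * (cos θ - κ * sin θ) := by
      unfold vv
      rw [h2, cos_sub, sin_sub, hm]
      ring
    have h4 : vv κ θ (i + 1) = cos (((i + 1 : ℕ) : ℝ) * θ) := by
      unfold vv
      rw [hm]; ring
    unfold UU
    rw [h3, h4]
    have h5 : Q ^ i ≠ 0 := pow_ne_zero _ hQ.ne'
    rw [pow_succ]
    field_simp
    have h6 : (1 + a) * Q * (cos θ - κ * sin θ) = (a + 2 * Q * cos θ - a * b) := by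
      have h7 : b * ((1 + a) * Q * (cos θ - κ * sin θ)) = b * (a + 2 * Q * cos θ - a * b) := by
        linear_combination (-Q) * hκ - (b - 1 + 2 * Q * cos θ) * hab
      exact mul_left_cancel₀ hb.ne' h7
    linear_combination cos (((i + 1 : ℕ) : ℝ) * θ) * h6

theorem eigSeq_odd {q : ℝ} (hq : 0 < q) {m : ℕ} (hm : ((2 * m + 1 : ℕ) : ℝ) * θ = 2 * π) (hs : sin θ ≠ 0)
    (hκ : (q + 1) * (cos θ + κ * sin θ) = q - 1 + 2 * q * cos θ) :
    EigSeq q q (2 * q * cos θ) (2 * m + 1) (UU q κ θ) := by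
  have h1 : q + 1 ≠ 0 := by positivity
  have hU1 : UU q κ θ 1 = (q - 1 + 2 * q * cos θ) / (q * (q + 1)) := by
    unfold UU
    rw [vv_one, pow_one, div_eq_div_iff hq.ne' (by positivity)]
    linear_combination q * hκ
  have hab : q ^ 2 = q * q := by ring
  constructor
  · rw [UU_zero, hU1]
    field_simp
    ring
  · intro i _
    have := UU_rec (κ := κ) (θ := θ) hq.ne' hab i
    linear_combination this
  · intro i hi
    have hi' : m = i + 1 := by omega
    subst hi'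
    have h2 : ((i + 2 : ℕ) : ℝ) * θ = 2 * π - ((i + 1 : ℕ) : ℝ) * θ := by
      rw [← hm]; push_cast; ring
    have h3 : vv κ θ (i + 2) = cos (((i + 1 : ℕ) : ℝ) * θ) - κ * sin (((i + 1 : ℕ) : ℝ) * θ) := by
      unfold vv
      rw [h2, cos_two_pi_sub, sin_two_pi_sub]
      ring
    have h4 : vv κ θ (i + 2) = q * vv κ θ (i + 1) := by
      have h5 : ((i + 2 : ℕ) : ℝ) * θ = ((i + 1 : ℕ) : ℝ) * θ + θ := by push_cast; ring
      have h6 : sin (((i + 2 : ℕ) : ℝ) * θ) = - sin (((i + 1 : ℕ) : ℝ) * θ) := by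
        rw [h2, sin_two_pi_sub]
      rw [h5, sin_add] at h6
      rw [h3]
      unfold vv
      apply mul_left_cancel₀ hs
      have h7 : (q + 1) * (κ * sin θ) = (q - 1) * (1 + cos θ) := by linear_combination hκ
      linear_combination (-sin (((i + 1 : ℕ) : ℝ) * θ)) * h7 - (q - 1) * h6
    have h5 := UU_rec (κ := κ) (θ := θ) hq.ne' hab i
    have h6 : UU q κ θ (i + 2) = UU q κ θ (i + 1) := by
      unfold UU
      rw [h4, pow_succ q (i + 1), mul_comm q (vv κ θ (i + 1)), mul_div_mul_right _ _ hq.ne']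
    rw [h6] at h5
    linear_combination h5
  · intro i hi
    omega

theorem sum_vv_sq (m : ℕ) :
    4 * sin θ * ∑ i ∈ Finset.range m, vv κ θ i ^ 2 =
      2 * m * (1 + κ ^ 2) * sin θ + (1 - κ ^ 2) * (sin (2 * (m * θ)) * cos θ - cos (2 * (m * θ)) * sin θ + sin θ)
        + 2 * κ * (cos θ - cos (2 * (m * θ)) * cos θ - sin (2 * (m * θ)) * sin θ) := by
  induction m with
  | zero => simp
  | succ m ih =>
    rw [Finset.sum_range_succ, mul_add, ih]
    unfold vv
    have h1 : (2 * (((m + 1 : ℕ) : ℝ) * θ)) = 2 * (m * θ) + 2 * θ := by push_cast; ring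
    rw [h1, sin_add, cos_add, sin_two_mul (m * θ), cos_two_mul (m * θ), sin_two_mul θ, cos_two_mul θ]
    push_cast
    have e1 := sin_sq_add_cos_sq (m * θ)
    have e2 := sin_sq_add_cos_sq θ
    generalize sin (m * θ) = S at *
    generalize cos (m * θ) = C at *
    generalize sin θ = σ at *
    generalize cos θ = c at *
    have e1' : S ^ 2 = 1 - C ^ 2 := by linarith
    have e2' : σ ^ 2 = 1 - c ^ 2 := by linarith
    ring_nf
    simp only [e1', e2']
    ring

end trig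

end Cfsg.Agent.H93.FH
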