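import Mathlib
import Cfsg.Agent.H93.FH.Trig

/-!
The theorem of Feit and Higman for rank two (B,N)-pairs.
-/

set_option autoImplicit false

namespace Cfsg.Agent.H93.FH

open Cfsg.Agent.BNP Cfsg.Agent Real

theorem sum_range_two_mul (m : ℕ) (f : ℕ → ℝ) :
    ∑ k ∈ Finset.range (2 * m), f k = ∑ i ∈ Finset.range m, (f (2 * i) + f (2 * i + 1)) := by
  induction m with
  | zero => simp
  | succ m ih =>
    rw [show 2 * (m + 1) = 2 * m + 1 + 1 by ring, Finset.sum_range_succ, Finset.sum_range_succ, Finset.sum_range_succ, ih]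
    ring

/-- the rational numbers as a subfield -/
noncomputable def KQ : Subfield ℝ := (algebraMap ℚ ℝ).fieldRange

theorem mem_KQ {x : ℝ} : x ∈ KQ ↔ ∃ q : ℚ, x = q := by
  unfold KQ
  rw [RingHom.mem_fieldRange]
  constructor
  · rintro ⟨q, hq⟩
    exact ⟨q, by rw [← hq]; rfl⟩
  · rintro ⟨q, hq⟩
    exact ⟨q, by rw [hq]; rfl⟩

theorem nat_mem_KQ (n : ℕ) : (n : ℝ) ∈ KQ := natCast_mem KQ n

variable {G : Type*} [Group G] {P : Cfsg.BNPair G}
variable {s t : P.S}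

section
variable [Fintype G]

theorem qq_pos (r : P.S) : (0 : ℝ) < qq P r := by
  have := two_le_qq P r
  have : (2 : ℝ) ≤ qq P r := by exact_mod_cast this
  linarith

theorem two_le_qq' (r : P.S) : (2 : ℝ) ≤ qq P r := by
  have := two_le_qq P r
  exact_mod_cast this

omit [Fintype G] in
theorem qp_term1 {Q κ θ : ℝ} (hQ : 0 < Q) (hab : Q ^ 2 = qq P s * qq P t) (i : ℕ) :
    qp P t s (2 * i) * UU Q κ θ i ^ 2 = vv κ θ i ^ 2 := by
  rw [qp_two_mul, mul_comm (qq P t : ℝ), ← hab]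
  unfold UU
  have h1 : Q ^ i ≠ 0 := pow_ne_zero _ hQ.ne'
  rw [div_pow, ← pow_mul, ← pow_mul, mul_comm 2 i]
  field_simp

theorem qp_term2 {Q κ θ : ℝ} (hQ : 0 < Q) (hab : Q ^ 2 = qq P s * qq P t) (i : ℕ) :
    qp P t s (2 * i + 1) * UU Q κ θ (i + 1) ^ 2 = vv κ θ (i + 1) ^ 2 / qq P s := by
  have ha := qq_pos s
  have hb := qq_pos t
  rw [qp_two_mul_add_one, mul_comm (qq P t : ℝ) (qq P s), ← hab]
  unfold UU
  have h1 : Q ^ i ≠ 0 := pow_ne_zero _ hQ.ne'
  rw [div_pow, show (Q ^ (i + 1)) ^ 2 = (Q ^ 2) ^ i * Q ^ 2 by ring]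
  have h2 : (Q ^ 2) ^ i ≠ 0 := by positivity
  rw [hab] at *
  field_simp

/-- consequence of the integrality of the multiplicity -/
theorem rat_sum (hn : 1 < nn P s t) (hS : ∀ r : P.S, r = s ∨ r = t) {U : ℕ → ℝ} {x : ℝ}
    (hU : EigSeq (qq P s) (qq P t) x (nn P s t) U) (hU0 : U 0 = 1) :
    ∑ k ∈ Finset.range (nn P s t), qp P t s k * U ((k + 1) / 2) ^ 2 ∈ KQ := by
  obtain ⟨k, hk⟩ := exists_nat_mult hn hS hU hU0
  have h1 := sum_lv (P := P) (s := s) (t := t) (by omega) hS (fun j => U ((j + 1) / 2) ^ 2)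
  have h2 : ∑ h : G, U (dv P s h) ^ 2 = (1 + qq P s) * bb P *
      ∑ k ∈ Finset.range (nn P s t), qp P t s k * U ((k + 1) / 2) ^ 2 := h1
  rw [h2] at hk
  set S := ∑ k ∈ Finset.range (nn P s t), qp P t s k * U ((k + 1) / 2) ^ 2
  have ha := qq_pos s
  have hbb := bb_pos P
  have hcard : (Nat.card G : ℝ) ≠ 0 := by
    have : 0 < Nat.card G := Nat.card_pos
    positivity
  have hk0 : (k : ℝ) ≠ 0 := by
    intro h0
    rw [h0, zero_mul] at hk
    exact hcard hk
  have h3 : S = Nat.card G / (k * ((1 + qq P s) * bb P)) := by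
    rw [hk]
    field_simp
  rw [h3]
  apply KQ.div_mem (nat_mem_KQ _)
  apply KQ.mul_mem (nat_mem_KQ _)
  apply KQ.mul_mem
  · exact KQ.add_mem KQ.one_mem (nat_mem_KQ _)
  · exact nat_mem_KQ _

/-- the even case -/
theorem even_rat {m : ℕ} (hm : 0 < m) (hn : nn P s t = 2 * m) (hS : ∀ r : P.S, r = s ∨ r = t) {j : ℕ} (hj : 0 < j)
    (hjm : j < m) :
    ∀ x : ℝ, x = 2 * √((qq P s : ℝ) * qq P t) * cos (j * π / m) →
    (qq P s + qq P t + x) * (qq P s * qq P t + 1 - x) / (4 * (qq P s * qq P t) - x ^ 2) ∈ KQ := by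
  intro x hx
  have ha := qq_pos s
  have hb := qq_pos t
  set a : ℝ := (qq P s : ℝ)
  set b : ℝ := (qq P t : ℝ)
  set Q : ℝ := √(a * b) with hQ'
  have hQ : 0 < Q := Real.sqrt_pos.2 (by positivity)
  have hab : Q ^ 2 = a * b := Real.sq_sqrt (by positivity)
  set θ : ℝ := j * π / m with hθ
  have hmR : (0 : ℝ) < m := by exact_mod_cast hm
  have hjR : (0 : ℝ) < j := by exact_mod_cast hj
  have hjmR : (j : ℝ) < m := by exact_mod_cast hjm
  have hθ0 : 0 < θ := by positivity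
  have hθπ : θ < π := by
    rw [hθ, div_lt_iff₀ hmR, mul_comm π]
    exact mul_lt_mul_of_pos_right hjmR pi_pos
  have hsin : 0 < sin θ := sin_pos_of_pos_of_lt_pi hθ0 hθπ
  have hmθ : m * θ = j * π := by rw [hθ]; field_simp
  have hsm : sin (m * θ) = 0 := by rw [hmθ]; exact sin_nat_mul_pi j
  have hcm : cos (m * θ) ^ 2 = 1 := by
    have := sin_sq_add_cos_sq (m * θ)
    rw [hsm] at this
    linarith
  set κ : ℝ := (Q * (b - 1 + 2 * Q * cos θ) / (b * (a + 1)) - cos θ) / sin θ with hκ'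
  have hκ : b * (a + 1) * (cos θ + κ * sin θ) = Q * (b - 1 + 2 * Q * cos θ) := by
    rw [hκ']
    field_simp
    ring
  have hE := eigSeq_even hQ hab ha hb hsm hκ
  rw [← hn] at hE
  have hR := rat_sum (by omega) hS hE UU_zero
  rw [hn, sum_range_two_mul] at hR
  have h1 : ∀ i ∈ Finset.range m, (qp P t s (2 * i) * UU Q κ θ ((2 * i + 1) / 2) ^ 2 +
      qp P t s (2 * i + 1) * UU Q κ θ ((2 * i + 1 + 1) / 2) ^ 2) = vv κ θ i ^ 2 + vv κ θ (i + 1) ^ 2 / a := by
    intro i _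
    rw [show (2 * i + 1) / 2 = i by omega, show (2 * i + 1 + 1) / 2 = i + 1 by omega, qp_term1 hQ hab, qp_term2 hQ hab]
  rw [Finset.sum_congr rfl h1, Finset.sum_add_distrib, ← Finset.sum_div] at hR
  have h2 : ∑ i ∈ Finset.range m, vv κ θ (i + 1) ^ 2 = ∑ i ∈ Finset.range m, vv κ θ i ^ 2 := by
    have e1 := Finset.sum_range_succ (fun i => vv κ θ i ^ 2) m
    have e2 := Finset.sum_range_succ' (fun i => vv κ θ i ^ 2) m
    rw [e1] at e2
    have e3 : vv κ θ m ^ 2 = vv κ θ 0 ^ 2 := by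
      rw [vv_zero]
      unfold vv
      rw [hsm]
      linear_combination hcm
    rw [e3] at e2
    linarith
  rw [h2] at hR
  have h3 := sum_vv_sq (κ := κ) (θ := θ) m
  have h4 : sin (2 * (m * θ)) = 0 := by rw [sin_two_mul, hsm]; ring
  have h5 : cos (2 * (m * θ)) = 1 := by rw [cos_two_mul, hcm]; ring
  rw [h4, h5] at h3
  have h6 : ∑ i ∈ Finset.range m, vv κ θ i ^ 2 = m * (1 + κ ^ 2) / 2 := by
    apply mul_left_cancel₀ (mul_ne_zero (by norm_num : (4 : ℝ) ≠ 0) hsin.ne')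
    rw [h3]; ring
  rw [h6] at hR
  have h7 : (1 + κ ^ 2) ∈ KQ := by
    have h8 : (1 + κ ^ 2) = (m * (1 + κ ^ 2) / 2 + m * (1 + κ ^ 2) / 2 / a) * (2 * a) / (m * (a + 1)) := by
      field_simp
    rw [h8]
    apply KQ.div_mem
    · apply KQ.mul_mem hR
      exact KQ.mul_mem (by exact_mod_cast nat_mem_KQ 2) (nat_mem_KQ _)
    · exact KQ.mul_mem (nat_mem_KQ _) (KQ.add_mem (nat_mem_KQ _) KQ.one_mem)
  have hsc : sin θ ^ 2 = 1 - cos θ ^ 2 := by
    have := sin_sq_add_cos_sq θ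
    linarith
  have hD : 4 * (a * b) - x ^ 2 = 4 * (a * b) * sin θ ^ 2 := by
    rw [hx, hsc]
    linear_combination (-4 * cos θ ^ 2) * hab
  have hD0 : 4 * (a * b) - x ^ 2 ≠ 0 := by rw [hD]; positivity
  have h9 : (a + b + x) * (a * b + 1 - x) / (4 * (a * b) - x ^ 2) = (1 + κ ^ 2) * (a + 1) ^ 2 / (4 * a) := by
    rw [div_eq_div_iff hD0 (by positivity), hD]
    have e1 : κ * sin θ * (b * (a + 1)) = Q * (b - 1 + x) - cos θ * (b * (a + 1)) := by
      rw [hx]
      linear_combination hκ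
    have e2 : Q * cos θ = x / 2 := by rw [hx]; ring
    have e3 : a * b * cos θ ^ 2 = x ^ 2 / 4 := by
      rw [hx, ← hab]; ring
    have e4 : (κ * sin θ * (b * (a + 1))) ^ 2 = a * b * (b - 1 + x) ^ 2 - (b - 1 + x) * x * (b * (a + 1)) + cos θ ^ 2 * (b * (a + 1)) ^ 2 := by
      rw [e1, ← hab]
      linear_combination (-2 * (b - 1 + x) * (b * (a + 1))) * e2
    have e5 : b * ((1 + κ ^ 2) * (a + 1) ^ 2 * (4 * (a * b) * sin θ ^ 2)) = b * ((a + b + x) * (a * b + 1 - x) * (4 * a)) := by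
      have e6 : b * ((1 + κ ^ 2) * (a + 1) ^ 2 * (4 * (a * b) * sin θ ^ 2)) =
          4 * a * ((κ * sin θ * (b * (a + 1))) ^ 2 + (b * (a + 1)) ^ 2 * sin θ ^ 2) := by ring
      rw [e6, e4, hsc]
      ring
    have e7 := mul_left_cancel₀ hb.ne' e5
    rw [e7]
  rw [h9]
  apply KQ.div_mem
  · apply KQ.mul_mem h7
    apply pow_mem
    exact KQ.add_mem (nat_mem_KQ _) KQ.one_mem
  · exact KQ.mul_mem (by exact_mod_cast nat_mem_KQ 4) (nat_mem_KQ _)

/-- from `T x` and `T (-x)` rational to `x` rational -/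
theorem rat_of_pm {a b x : ℝ} (ha : 2 ≤ a) (hb : 2 ≤ b) (haK : a ∈ KQ) (hbK : b ∈ KQ) (hx : 4 * (a * b) - x ^ 2 ≠ 0)
    (h1 : (a + b + x) * (a * b + 1 - x) / (4 * (a * b) - x ^ 2) ∈ KQ)
    (h2 : (a + b + -x) * (a * b + 1 - -x) / (4 * (a * b) - (-x) ^ 2) ∈ KQ) : x ∈ KQ := by
  rw [neg_sq] at h2
  set D := 4 * (a * b) - x ^ 2 with hD
  have h2K : (2 : ℝ) ∈ KQ := by exact_mod_cast nat_mem_KQ 2
  have h4K : (4 : ℝ) ∈ KQ := by exact_mod_cast nat_mem_KQ 4
  have habK := KQ.mul_mem haK hbK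
  have e0 : (a + b) * (a * b + 1) - 4 * (a * b) ≠ 0 := by
    have e1 : (a + b) * (a * b + 1) - 4 * (a * b) = a * (b - 1) ^ 2 + b * (a - 1) ^ 2 := by ring
    rw [e1]
    have : 0 < a * (b - 1) ^ 2 := by
      apply mul_pos (by linarith)
      apply pow_pos; linarith
    have : 0 < b * (a - 1) ^ 2 := by
      apply mul_pos (by linarith)
      apply pow_pos; linarith
    positivity
  have e2 : 1 / D ∈ KQ := by
    have e3 : 1 / D = ((a + b + x) * (a * b + 1 - x) / D + (a + b + -x) * (a * b + 1 - -x) / D - 2) /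
        (2 * ((a + b) * (a * b + 1) - 4 * (a * b))) := by
      rw [div_eq_div_iff hx (mul_ne_zero two_ne_zero e0)]
      have e4 : ((a + b + x) * (a * b + 1 - x) / D + (a + b + -x) * (a * b + 1 - -x) / D - 2) * D =
          (a + b + x) * (a * b + 1 - x) + (a + b + -x) * (a * b + 1 - -x) - 2 * D := by
        field_simp
      rw [e4, hD]
      ring
    rw [e3]
    apply KQ.div_mem
    · exact KQ.sub_mem (KQ.add_mem h1 h2) h2K
    · apply KQ.mul_mem h2K
      apply KQ.sub_mem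
      · exact KQ.mul_mem (KQ.add_mem haK hbK) (KQ.add_mem habK KQ.one_mem)
      · exact KQ.mul_mem h4K habK
  have e4 : (a - 1) * (b - 1) ≠ 0 := by
    apply mul_ne_zero <;> linarith
  have e5 : x = ((a + b + x) * (a * b + 1 - x) / D - (a + b + -x) * (a * b + 1 - -x) / D) / (2 * ((a - 1) * (b - 1)) * (1 / D)) := by
    rw [eq_div_iff (mul_ne_zero (mul_ne_zero two_ne_zero e4) (one_div_ne_zero hx)), ← sub_div]
    have e6 : x * (2 * ((a - 1) * (b - 1)) * (1 / D)) = x * (2 * ((a - 1) * (b - 1))) / D := by ring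
    rw [e6]
    congr 1
    ring
  rw [e5]
  apply KQ.div_mem (KQ.sub_mem h1 h2)
  apply KQ.mul_mem _ e2
  apply KQ.mul_mem h2K
  exact KQ.mul_mem (KQ.sub_mem haK KQ.one_mem) (KQ.sub_mem hbK KQ.one_mem)

theorem even_rat_x {m : ℕ} (hm : 0 < m) (hn : nn P s t = 2 * m) (hS : ∀ r : P.S, r = s ∨ r = t) {j : ℕ} (hj : 0 < j)
    (hjm : j < m) : 2 * √((qq P s : ℝ) * qq P t) * cos (j * π / m) ∈ KQ := by
  have hmR : (0 : ℝ) < m := by exact_mod_cast hm
  have hjR : (0 : ℝ) < j := by exact_mod_cast hj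
  have hjmR : (j : ℝ) < m := by exact_mod_cast hjm
  have h1 := even_rat hm hn hS hj hjm _ rfl
  have hc : cos (((m - j : ℕ) : ℝ) * π / m) = - cos (j * π / m) := by
    rw [← cos_pi_sub]
    congr 1
    rw [Nat.cast_sub hjm.le]
    field_simp
  have h2 := even_rat hm hn hS (j := m - j) (by omega) (by omega) (-(2 * √((qq P s : ℝ) * qq P t) * cos (j * π / m))) (by
    rw [hc]; ring)
  refine rat_of_pm (two_le_qq' s) (two_le_qq' t) (nat_mem_KQ _) (nat_mem_KQ _) ?_ h1 h2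
  have ha := qq_pos s
  have hb := qq_pos t
  have hQ : √((qq P s : ℝ) * qq P t) ^ 2 = qq P s * qq P t := Real.sq_sqrt (by positivity)
  have hsin : 0 < sin (j * π / m) := by
    apply sin_pos_of_pos_of_lt_pi (by positivity)
    rw [div_lt_iff₀ hmR, mul_comm π]
    exact mul_lt_mul_of_pos_right hjmR pi_pos
  have hsc := sin_sq_add_cos_sq (j * π / m)
  have e1 : 4 * ((qq P s : ℝ) * qq P t) - (2 * √((qq P s : ℝ) * qq P t) * cos (j * π / m)) ^ 2 =
      4 * (qq P s * qq P t) * sin (j * π / m) ^ 2 := by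
    rw [mul_pow, mul_pow, hQ]
    linear_combination (-4 * ((qq P s : ℝ) * qq P t)) * hsc
  rw [e1]
  positivity

theorem even_case {m : ℕ} (hm : 0 < m) (hn : nn P s t = 2 * m) (hS : ∀ r : P.S, r = s ∨ r = t) :
    m = 1 ∨ m = 2 ∨ m = 3 ∨ m = 4 := by
  by_contra hcon
  push Not at hcon
  have hm5 : 5 ≤ m := by omega
  have hmR : (0 : ℝ) < m := by exact_mod_cast hm
  have ha := qq_pos s
  have hb := qq_pos t
  have h1 := even_rat_x hm hn hS (j := 1) (by omega) (by omega)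
  have hQ : √((qq P s : ℝ) * qq P t) ^ 2 = qq P s * qq P t := Real.sq_sqrt (by positivity)
  have h2 : cos (2 * (((1 : ℕ) : ℝ) * π / m)) ∈ KQ := by
    have e1 : cos (2 * (((1 : ℕ) : ℝ) * π / m)) =
        (2 * √((qq P s : ℝ) * qq P t) * cos (((1 : ℕ) : ℝ) * π / m)) ^ 2 / (2 * (qq P s * qq P t)) - 1 := by
      rw [mul_pow, mul_pow, hQ, cos_two_mul]
      field_simp
    rw [e1]
    apply KQ.sub_mem _ KQ.one_mem
    apply KQ.div_mem
    · exact pow_mem h1 2
    · exact KQ.mul_mem (by exact_mod_cast nat_mem_KQ 2) (KQ.mul_mem (nat_mem_KQ _) (nat_mem_KQ _))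
  rw [mem_KQ] at h2
  have h3 : m = 6 := by
    have h4 := niven_angle_div_pi_eq (r := 2 / (m : ℚ)) (by
      obtain ⟨q, hq⟩ := h2
      refine ⟨q, ?_⟩
      rw [← hq]
      congr 1
      push_cast
      ring) (by
      constructor
      · positivity
      · rw [div_le_one (by exact_mod_cast hm)]
        have : (5 : ℚ) ≤ m := by exact_mod_cast hm5
        linarith)
    have hmQ : (m : ℚ) ≠ 0 := by
      have : (5 : ℚ) ≤ m := by exact_mod_cast hm5
      linarith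
    simp only [Set.mem_insert_iff, Set.mem_singleton_iff] at h4
    rcases h4 with h | h | h | h | h
    · rw [div_eq_zero_iff] at h
      rcases h with h | h
      · norm_num at h
      · exact absurd h hmQ
    · rw [div_eq_div_iff hmQ (by norm_num)] at h
      have : (m : ℚ) = 6 := by linarith
      exact_mod_cast this
    · rw [div_eq_div_iff hmQ (by norm_num)] at h
      have : (m : ℚ) = 4 := by linarith
      have : m = 4 := by exact_mod_cast this
      omega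
    · rw [div_eq_div_iff hmQ (by norm_num)] at h
      have : (m : ℚ) = 3 := by linarith
      have : m = 3 := by exact_mod_cast this
      omega
    · rw [div_eq_iff hmQ] at h
      have : (m : ℚ) = 2 := by linarith
      have : m = 2 := by exact_mod_cast this
      omega
  subst h3
  have h4 := even_rat_x hm hn hS (j := 2) (by omega) (by omega)
  have e1 : (((1 : ℕ) : ℝ) * π / ((6 : ℕ) : ℝ)) = π / 6 := by push_cast; ring
  have e2 : (((2 : ℕ) : ℝ) * π / ((6 : ℕ) : ℝ)) = π / 3 := by push_cast; ring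
  rw [e1, cos_pi_div_six] at h1
  rw [e2, cos_pi_div_three] at h4
  have hQ0 : √((qq P s : ℝ) * qq P t) ≠ 0 := (Real.sqrt_pos.2 (by positivity)).ne'
  have h5 : √3 ∈ KQ := by
    have e3 : √3 = (2 * √((qq P s : ℝ) * qq P t) * (√3 / 2)) / (2 * √((qq P s : ℝ) * qq P t) * (1 / 2)) := by
      field_simp
    rw [e3]
    exact KQ.div_mem h1 h4
  rw [mem_KQ] at h5
  obtain ⟨q, hq⟩ := h5
  have h6 : Irrational √3 := by
    have := Nat.Prime.irrational_sqrt (p := 3) (by norm_num)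
    exact_mod_cast this
  exact h6 ⟨q, hq.symm⟩

theorem odd_case {m : ℕ} (hm : 0 < m) (hn : nn P s t = 2 * m + 1) (hS : ∀ r : P.S, r = s ∨ r = t) : m = 1 := by
  have hqq : qq P s = qq P t := qq_eq_of_odd P hn
  have ha := qq_pos s
  have ha2 := two_le_qq' s
  set q : ℝ := (qq P s : ℝ) with hq
  have hb : (qq P t : ℝ) = q := by rw [hq, hqq]
  set θ : ℝ := 2 * π / (2 * m + 1 : ℕ) with hθ
  have hmR : (1 : ℝ) ≤ m := by exact_mod_cast hm
  have hnR : (0 : ℝ) < (2 * m + 1 : ℕ) := by positivity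
  have hθ0 : 0 < θ := by have := pi_pos; positivity
  have hθπ : θ < π := by
    rw [hθ, div_lt_iff₀ hnR]
    push_cast
    have := pi_pos
    nlinarith
  have hsin : 0 < sin θ := sin_pos_of_pos_of_lt_pi hθ0 hθπ
  have hnθ : ((2 * m + 1 : ℕ) : ℝ) * θ = 2 * π := by rw [hθ]; field_simp
  have hsc : sin θ ^ 2 = (1 - cos θ) * (1 + cos θ) := by
    have := sin_sq_add_cos_sq θ
    linarith
  have hc1 : 0 < 1 - cos θ := by
    have h1 := cos_le_one θ
    rcases h1.lt_or_eq with h | h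
    · linarith
    · rw [h] at hsc
      have : sin θ ^ 2 = 0 := by rw [hsc]; ring
      have := pow_eq_zero_iff (two_ne_zero) |>.1 this
      linarith
  set κ : ℝ := (q - 1) * (1 + cos θ) / ((q + 1) * sin θ) with hκ'
  have hq1 : q + 1 ≠ 0 := by positivity
  have hκs : (q + 1) * (κ * sin θ) = (q - 1) * (1 + cos θ) := by
    rw [hκ']; field_simp
  have hκ : (q + 1) * (cos θ + κ * sin θ) = q - 1 + 2 * q * cos θ := by
    linear_combination hκs
  have hE := eigSeq_odd ha hnθ hsin.ne' hκ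
  have hE' : EigSeq (qq P s) (qq P t) (2 * q * cos θ) (nn P s t) (UU q κ θ) := by
    rw [hb, hn]; exact hE
  have hR := rat_sum (by omega) hS hE' UU_zero
  have hab : q ^ 2 = qq P s * qq P t := by rw [hb]; ring
  rw [hn, Finset.sum_range_succ, sum_range_two_mul] at hR
  have h1 : ∀ i ∈ Finset.range m, (qp P t s (2 * i) * UU q κ θ ((2 * i + 1) / 2) ^ 2 +
      qp P t s (2 * i + 1) * UU q κ θ ((2 * i + 1 + 1) / 2) ^ 2) = vv κ θ i ^ 2 + vv κ θ (i + 1) ^ 2 / q := by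
    intro i _
    rw [show (2 * i + 1) / 2 = i by omega, show (2 * i + 1 + 1) / 2 = i + 1 by omega, qp_term1 ha hab, qp_term2 ha hab]
  rw [Finset.sum_congr rfl h1, Finset.sum_add_distrib, ← Finset.sum_div, show (2 * m + 1) / 2 = m by omega,
    qp_term1 ha hab] at hR
  have e1 := Finset.sum_range_succ (fun i => vv κ θ i ^ 2) m
  have e2 := Finset.sum_range_succ' (fun i => vv κ θ i ^ 2) m
  simp only [vv_zero, one_pow] at e2
  set Sq := ∑ i ∈ Finset.range (m + 1), vv κ θ i ^ 2 with hSq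
  have hR' : Sq + (Sq - 1) / q ∈ KQ := by
    have e3 : Sq + (Sq - 1) / q = ∑ i ∈ Finset.range m, vv κ θ i ^ 2 + (∑ i ∈ Finset.range m, vv κ θ (i + 1) ^ 2) / q + vv κ θ m ^ 2 := by
      rw [show (∑ i ∈ Finset.range m, vv κ θ (i + 1) ^ 2) = Sq - 1 by linarith]
      linarith
    rw [e3]; exact hR
  have hSqK : Sq ∈ KQ := by
    have e3 : Sq = ((Sq + (Sq - 1) / q) * q + 1) / (q + 1) := by
      field_simp
      ring
    rw [e3]
    apply KQ.div_mem
    · exact KQ.add_mem (KQ.mul_mem hR' (nat_mem_KQ _)) KQ.one_mem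
    · exact KQ.add_mem (nat_mem_KQ _) KQ.one_mem
  have h3 := sum_vv_sq (κ := κ) (θ := θ) (m + 1)
  have h4 : 2 * (((m + 1 : ℕ) : ℝ) * θ) = θ + 2 * π := by
    rw [← hnθ]; push_cast; ring
  rw [h4, sin_add_two_pi, cos_add_two_pi, ← hSq] at h3
  have h5 : 4 * sin θ * Sq = 2 * ((m + 1 : ℕ) : ℝ) * (1 + κ ^ 2) * sin θ + (1 - κ ^ 2) * sin θ - 2 * (κ * (1 - cos θ)) := by
    rw [h3]
    have := sin_sq_add_cos_sq θ
    linear_combination (-2 * κ) * this
  have h6 : (q + 1) * (κ * (1 - cos θ)) = (q - 1) * sin θ := by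
    apply mul_left_cancel₀ hsin.ne'
    linear_combination (1 - cos θ) * hκs - (q - 1) * hsc
  have h7 : κ ^ 2 * (q + 1) ^ 2 * (1 - cos θ) = (q - 1) ^ 2 * (1 + cos θ) := by
    apply mul_left_cancel₀ (pow_ne_zero 2 hsin.ne')
    have e3 : sin θ ^ 2 * (κ ^ 2 * (q + 1) ^ 2 * (1 - cos θ)) = ((q + 1) * (κ * sin θ)) ^ 2 * (1 - cos θ) := by ring
    rw [e3, hκs, hsc]
    ring
  have h8 : 4 * Sq * (q + 1) = 2 * ((m + 1 : ℕ) : ℝ) * (1 + κ ^ 2) * (q + 1) + (1 - κ ^ 2) * (q + 1) - 2 * (q - 1) := by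
    apply mul_left_cancel₀ hsin.ne'
    linear_combination (q + 1) * h5 - 2 * h6
  have hqK : q ∈ KQ := nat_mem_KQ _
  have h2K : (2 : ℝ) ∈ KQ := by exact_mod_cast nat_mem_KQ 2
  have h4K : (4 : ℝ) ∈ KQ := by exact_mod_cast nat_mem_KQ 4
  have hκK : κ ^ 2 ∈ KQ := by
    have e3 : κ ^ 2 = (4 * Sq * (q + 1) + 2 * (q - 1) - (q + 1) - 2 * ((m + 1 : ℕ) : ℝ) * (q + 1)) /
        ((2 * (m : ℝ) + 1) * (q + 1)) := by
      have h9 : (2 * (m : ℝ) + 1) * (q + 1) ≠ 0 := by positivity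
      rw [eq_div_iff h9, h8]
      push_cast
      ring
    rw [e3]
    have hq1K := KQ.add_mem hqK KQ.one_mem
    apply KQ.div_mem
    · apply KQ.sub_mem
      · apply KQ.sub_mem _ hq1K
        exact KQ.add_mem (KQ.mul_mem (KQ.mul_mem h4K hSqK) hq1K) (KQ.mul_mem h2K (KQ.sub_mem hqK KQ.one_mem))
      · exact KQ.mul_mem (KQ.mul_mem h2K (nat_mem_KQ _)) hq1K
    · exact KQ.mul_mem (KQ.add_mem (KQ.mul_mem h2K (nat_mem_KQ _)) KQ.one_mem) hq1K
  have hcK : cos θ ∈ KQ := by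
    have hq2 : 0 < q - 1 := by linarith
    have e3 : cos θ = (κ ^ 2 * (q + 1) ^ 2 - (q - 1) ^ 2) / (κ ^ 2 * (q + 1) ^ 2 + (q - 1) ^ 2) := by
      have h9 : κ ^ 2 * (q + 1) ^ 2 + (q - 1) ^ 2 ≠ 0 := by positivity
      rw [eq_div_iff h9]
      linear_combination (-1) * h7
    rw [e3]
    have hk2 := KQ.mul_mem hκK (pow_mem (KQ.add_mem hqK KQ.one_mem) 2)
    have hq3 := pow_mem (KQ.sub_mem hqK KQ.one_mem) 2
    exact KQ.div_mem (KQ.sub_mem hk2 hq3) (KQ.add_mem hk2 hq3)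
  rw [mem_KQ] at hcK
  have hnQ : (0 : ℚ) < (2 * m + 1 : ℕ) := by positivity
  have hn3 : (3 : ℚ) ≤ (2 * m + 1 : ℕ) := by exact_mod_cast (by omega : 3 ≤ 2 * m + 1)
  have h9 := niven_angle_div_pi_eq (r := 2 / ((2 * m + 1 : ℕ) : ℚ)) (by
      obtain ⟨r, hr⟩ := hcK
      refine ⟨r, ?_⟩
      rw [← hr, hθ]
      congr 1
      push_cast
      ring) (by
      constructor
      · positivity
      · rw [div_le_one hnQ]
        linarith)
  simp only [Set.mem_insert_iff, Set.mem_singleton_iff] at h9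
  rcases h9 with h | h | h | h | h
  · rw [div_eq_zero_iff] at h
    rcases h with h | h
    · norm_num at h
    · exact absurd h hnQ.ne'
  · rw [div_eq_div_iff hnQ.ne' (by norm_num)] at h
    have : ((2 * m + 1 : ℕ) : ℚ) = (6 : ℕ) := by push_cast at h ⊢; linarith
    have : 2 * m + 1 = 6 := by exact_mod_cast this
    omega
  · rw [div_eq_div_iff hnQ.ne' (by norm_num)] at h
    have : ((2 * m + 1 : ℕ) : ℚ) = (4 : ℕ) := by push_cast at h ⊢; linarith
    have : 2 * m + 1 = 4 := by exact_mod_cast this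
    omega
  · rw [div_eq_div_iff hnQ.ne' (by norm_num)] at h
    have : ((2 * m + 1 : ℕ) : ℚ) = (3 : ℕ) := by push_cast at h ⊢; linarith
    have : 2 * m + 1 = 3 := by exact_mod_cast this
    omega
  · rw [div_eq_iff hnQ.ne'] at h
    linarith

end

/-- the theorem of Feit and Higman -/
theorem feit_higman [Finite G] (hst : s ≠ t) (hS : ∀ r : P.S, r = s ∨ r = t) :
    Nat.card (W P) ∈ ({4, 6, 8, 12, 16} : Set ℕ) := by
  have := Fintype.ofFinite G
  have hW : Finite (W P) := inferInstance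
  have hn0 : 0 < nn P s t := orderOf_pos _
  have hn1 : nn P s t ≠ 1 := by
    intro h
    have h1 : σ P s * σ P t = 1 := orderOf_eq_one_iff.1 h
    apply hst
    apply σ_injective P
    rw [← σ_inv P t]
    exact eq_inv_of_mul_eq_one_left h1
  rw [card_W P hn0 hS]
  rcases Nat.even_or_odd' (nn P s t) with ⟨m, hm | hm⟩
  · have h1 := even_case (by omega) hm hS
    simp only [Set.mem_insert_iff, Set.mem_singleton_iff]
    omega
  · have h1 := odd_case (by omega) hm hS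
    simp only [Set.mem_insert_iff, Set.mem_singleton_iff]
    omega

end Cfsg.Agent.H93.FH
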